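import Mathlib
import Cfsg.Agent.Lib.OddLocal.Omega
import Cfsg.Agent.Lib.OddLocal.Basic
import Cfsg.Agent.Lib.Hall.CoprimeAction
import Cfsg.Agent.Lib.ClassSizes.Basic
import Cfsg.Agent.Lib.Core.Basic

/-!
# Fusion in `G = K U`; groups of `p`-length one: S1460, S1461
-/

set_option autoImplicit false

namespace Cfsg.Agent.Lib.OddLocal

open Cfsg Subgroup
open scoped commutatorElement Pointwise

variable {G : Type*} [Group G] [Finite G]

theorem pow_mul_inv_mem {T : Subgroup G} {u y : G} (hu : u ∈ T) (hy : y ∈ normalizer (T : Set G)) (n : ℕ) :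
    (u * y) ^ n * (y ^ n)⁻¹ ∈ T := by
  induction n with
  | zero => simp [one_mem]
  | succ n ih =>
    have h1 : (u * y) ^ (n + 1) * (y ^ (n + 1))⁻¹ = ((u * y) ^ n * (y ^ n)⁻¹) * (y ^ n * u * (y ^ n)⁻¹) := by
      rw [pow_succ (u * y), pow_succ y]
      group
    rw [h1]
    exact T.mul_mem ih ((Subgroup.mem_normalizer_iff.mp (Subgroup.pow_mem _ hy n) u).mp hu)

/-- If `x = u k` with `u` in `T`, `k` normalizing `T`, and `k ^ n = 1`, `n` coprime to the order of `x`,
then `x ∈ T`. -/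
theorem mem_of_mul_of_pow_eq_one {T : Subgroup G} {u k : G} (hu : u ∈ T)
    (hk : k ∈ normalizer (T : Set G)) {n : ℕ} (hkn : k ^ n = 1) (hc : n.Coprime (orderOf (u * k))) :
    u * k ∈ T := by
  have h1 := pow_mul_inv_mem hu hk n
  rw [hkn, inv_one, mul_one] at h1
  exact Cfsg.Agent.Lib.ClassSizes.mem_of_pow_mem_of_coprime T _ n hc h1

/-- `G = K U` with `K` normal gives `G' ≤ U' K`. -/
theorem commutator_le_sup_of_sup_eq_top {K U : Subgroup G} [hK : K.Normal] (hKU : K ⊔ U = ⊤) :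
    commutator G ≤ ⁅U, U⁆ ⊔ K := by
  set π := QuotientGroup.mk' K with hπ
  have hUtop : U.map π = ⊤ := by
    rw [eq_top_iff]
    intro z _
    obtain ⟨g, rfl⟩ := QuotientGroup.mk'_surjective K z
    have hg : g ∈ K ⊔ U := by rw [hKU]; trivial
    rw [sup_comm] at hg
    have hg' : g ∈ ((U ⊔ K : Subgroup G) : Set G) := hg
    rw [Subgroup.mul_normal, Set.mem_mul] at hg'
    obtain ⟨u, hu, k, hk', rfl⟩ := hg'
    refine ⟨u, hu, ?_⟩
    show π u = π (u * k)
    have h0 : π k = 1 := (QuotientGroup.eq_one_iff k).mpr hk'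
    rw [map_mul, h0, mul_one]
  intro x hx
  have h1 : π x ∈ (⁅U, U⁆ : Subgroup G).map π := by
    rw [Subgroup.map_commutator, hUtop, ← commutator_def]
    have h2 : (commutator G).map π ≤ commutator (G ⧸ K) := by
      rw [commutator_def, commutator_def, Subgroup.map_commutator]
      exact Subgroup.commutator_mono le_top le_top
    exact h2 ⟨x, hx, rfl⟩
  obtain ⟨u, hu, hux⟩ := h1
  have h3 : u⁻¹ * x ∈ K := (QuotientGroup.eq (s := K)).mp hux
  have h4 : x = u * (u⁻¹ * x) := by group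
  rw [h4]
  exact Subgroup.mul_mem_sup hu h3

section S1460

variable {K U H : Subgroup G} [hK : K.Normal] (hs : Group.IsSolvable G) (hKU : K ⊔ U = ⊤) (hH : H ≤ U)
  (hcop : (Nat.card H).Coprime (Nat.card K))
include hs hKU hH hcop

/-- **S1460 (c)**. -/
theorem exists_factor_of_conj_le {g : G} (hg : H.map (MulAut.conj g).toMonoidHom ≤ U) :
    ∃ u ∈ U, ∃ c ∈ K ⊓ centralizer (H : Set G), g = u * c := by
  have hg1 : g ∈ ((U ⊔ K : Subgroup G) : Set G) := by
    rw [sup_comm, hKU]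
    trivial
  rw [Subgroup.mul_normal, Set.mem_mul] at hg1
  obtain ⟨u, hu, k, hk', rfl⟩ := hg1
  have hconj : ∀ h ∈ H, k * h * k⁻¹ ∈ U := by
    intro h hh
    have h1 : (u * k) * h * (u * k)⁻¹ ∈ U := hg ⟨h, hh, rfl⟩
    have h2 : k * h * k⁻¹ = u⁻¹ * ((u * k) * h * (u * k)⁻¹) * u := by group
    rw [h2]
    exact U.mul_mem (U.mul_mem (U.inv_mem hu) h1) hu
  let D : Subgroup G := K ⊓ U
  have hDK : D ≤ K := inf_le_left
  have hcopD : (Nat.card H).Coprime (Nat.card D) :=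
    Nat.Coprime.coprime_dvd_right (Subgroup.card_dvd_of_le hDK) hcop
  have hHD : H ≤ normalizer (D : Set G) := by
    intro h hh
    refine Cfsg.Agent.Lib.Hall.mem_normalizer_of_conj_le ?_
    intro x hx
    exact ⟨hK.conj_mem x hx.1 h, U.mul_mem (U.mul_mem (hH hh) hx.2) (U.inv_mem (hH hh))⟩
  let H₁ : Subgroup G := MulAut.conj k • H
  have hmemH₁ : ∀ h ∈ H, k * h * k⁻¹ ∈ H₁ := fun h hh => ⟨h, hh, rfl⟩
  have hcardH₁ : Nat.card H₁ = Nat.card H := Cfsg.Agent.Lib.Core.card_conj_smul _ _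
  let W : Subgroup G := D ⊔ H
  have hWnorm : W ≤ normalizer (D : Set G) := sup_le Subgroup.le_normalizer hHD
  have hH₁W : H₁ ≤ W := by
    rintro _ ⟨h, hh, rfl⟩
    have hh' : h ∈ H := hh
    change k * h * k⁻¹ ∈ W
    have h1 : k * h * k⁻¹ = (k * h * k⁻¹ * h⁻¹) * h := by group
    rw [h1]
    refine Subgroup.mul_mem_sup ⟨?_, U.mul_mem (hconj h hh') (U.inv_mem (hH hh'))⟩ hh'
    have h2 : k * h * k⁻¹ * h⁻¹ = k * (h * k⁻¹ * h⁻¹) := by group
    rw [h2]
    exact K.mul_mem hk' (hK.conj_mem _ (K.inv_mem hk') h)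
  have hDH : D ⊓ H = ⊥ := Cfsg.Agent.Lib.Hall.inf_eq_bot_of_coprime' hcopD.symm
  have hcardW : Nat.card W = Nat.card D * Nat.card H :=
    Cfsg.Agent.Lib.Hall.card_sup_of_normalizes D H hHD hDH
  have hDH₁ : D ⊓ H₁ = ⊥ := Cfsg.Agent.Lib.Hall.inf_eq_bot_of_coprime' (by rw [hcardH₁]; exact hcopD.symm)
  have hH₁n : H₁ ≤ normalizer (D : Set G) := hH₁W.trans hWnorm
  have hW₁ : D ⊔ H₁ = W := by
    apply Subgroup.eq_of_le_of_card_ge (sup_le le_sup_left hH₁W)
    rw [Cfsg.Agent.Lib.Hall.card_sup_of_normalizes D H₁ hH₁n hDH₁, hcardH₁, hcardW]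
  have hrel : D.relIndex W = Nat.card H := by
    have h1 := relIndex_mul_card (le_sup_left : D ≤ W)
    rw [hcardW, mul_comm (Nat.card D)] at h1
    exact Nat.eq_of_mul_eq_mul_right Nat.card_pos h1
  have hDsol : Group.IsSolvable D := by
    haveI := hs
    infer_instance
  obtain ⟨d, hd, hdH⟩ := Cfsg.Agent.Lib.Hall.exists_conj_rel' D W H H₁ le_sup_left hWnorm
    (Or.inl hDsol) (by rw [hrel]; exact hcopD.symm) hDH rfl hDH₁ hW₁
  -- `c = d⁻¹ k` normalizes `H`
  have hcK : d⁻¹ * k ∈ K := K.mul_mem (K.inv_mem hd.1) hk'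
  have hcn : ∀ h ∈ H, (d⁻¹ * k) * h * (d⁻¹ * k)⁻¹ ∈ H := by
    intro h hh
    have h1 : k * h * k⁻¹ ∈ MulAut.conj d • H := by
      rw [hdH]
      exact hmemH₁ h hh
    obtain ⟨y, hy, hyk⟩ := h1
    have h2 : d * y * d⁻¹ = k * h * k⁻¹ := hyk
    have h3 : (d⁻¹ * k) * h * (d⁻¹ * k)⁻¹ = y := by
      have : (d⁻¹ * k) * h * (d⁻¹ * k)⁻¹ = d⁻¹ * (k * h * k⁻¹) * d := by group
      rw [this, ← h2]
      group
    rw [h3]
    exact hy
  have hcC : d⁻¹ * k ∈ centralizer (H : Set G) := by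
    rw [Subgroup.mem_centralizer_iff]
    intro h hh
    set c := d⁻¹ * k with hc
    have h1 : c * h * c⁻¹ * h⁻¹ ∈ H := H.mul_mem (hcn h hh) (H.inv_mem hh)
    have h2 : c * h * c⁻¹ * h⁻¹ ∈ K := by
      have h3 : c * h * c⁻¹ * h⁻¹ = c * (h * c⁻¹ * h⁻¹) := by group
      rw [h3]
      exact K.mul_mem hcK (hK.conj_mem _ (K.inv_mem hcK) h)
    have hbot : H ⊓ K = ⊥ := Cfsg.Agent.Lib.Hall.inf_eq_bot_of_coprime' hcop
    have h4 : c * h * c⁻¹ * h⁻¹ ∈ H ⊓ K := ⟨h1, h2⟩
    rw [hbot, Subgroup.mem_bot] at h4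
    have h5 : c * h * c⁻¹ = h := by
      have := congrArg (fun z => z * h) h4
      simpa using this
    calc h * c = c * h * c⁻¹ * c := by rw [h5]
      _ = c * h := by group
  refine ⟨u * d, U.mul_mem hu hd.2, d⁻¹ * k, ⟨hcK, hcC⟩, by group⟩

/-- **S1460 (b)**. -/
theorem normalizer_eq_of_sup_eq_top :
    normalizer (H : Set G) = (K ⊓ centralizer (H : Set G)) ⊔ (U ⊓ normalizer (H : Set G)) := by
  apply le_antisymm
  · intro g hg
    have h0 : H.map (MulAut.conj g).toMonoidHom = H := Subgroup.mem_normalizer_iff_map_conj_eq.mp hg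
    have h1 : H.map (MulAut.conj g).toMonoidHom ≤ U := h0.le.trans hH
    obtain ⟨u, hu, c, hc, rfl⟩ := exists_factor_of_conj_le hs hKU hH hcop h1
    have hcN : c ∈ normalizer (H : Set G) := Subgroup.centralizer_le_normalizer _ hc.2
    have huN : u ∈ normalizer (H : Set G) := by
      have h2 : u = (u * c) * c⁻¹ := by group
      rw [h2]
      exact Subgroup.mul_mem _ hg (Subgroup.inv_mem _ hcN)
    rw [sup_comm]
    exact Subgroup.mul_mem_sup ⟨hu, huN⟩ hc
  · exact sup_le (inf_le_right.trans (Subgroup.centralizer_le_normalizer _)) inf_le_right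

/-- **S1460 (a)**. -/
theorem inf_commutator_eq_of_sup_eq_top : H ⊓ commutator G = H ⊓ ⁅U, U⁆ := by
  apply le_antisymm
  · rintro x ⟨hxH, hxG⟩
    refine ⟨hxH, ?_⟩
    have h1 := commutator_le_sup_of_sup_eq_top hKU hxG
    have h2 : x ∈ ((⁅U, U⁆ ⊔ K : Subgroup G) : Set G) := h1
    rw [Subgroup.mul_normal, Set.mem_mul] at h2
    obtain ⟨u', hu', k, hk', rfl⟩ := h2
    have hu'U : u' ∈ U := commutator_self_le U hu'
    have hkU : k ∈ U := by
      have h3 : k = u'⁻¹ * (u' * k) := by group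
      rw [h3]
      exact U.mul_mem (U.inv_mem hu'U) (hH hxH)
    refine mem_of_mul_of_pow_eq_one hu' (commutator_self_normalized U hkU)
      (n := Nat.card K) ?_ ?_
    · exact congrArg Subtype.val (pow_card_eq_one' (x := (⟨k, hk'⟩ : K)))
    · have h5 := orderOf_dvd_natCard (⟨_, hxH⟩ : H)
      rw [Subgroup.orderOf_mk] at h5
      exact Nat.Coprime.coprime_dvd_right h5 hcop.symm
  · refine inf_le_inf_left _ ?_
    rw [commutator_def]
    have : ⁅U, U⁆ ≤ ⁅(⊤ : Subgroup G), (⊤ : Subgroup G)⁆ := Subgroup.commutator_mono le_top le_top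
    exact this

end S1460

section PLength

variable (p : ℕ) [Fact p.Prime]

/-- The first terms of the upper `p`-series. -/
theorem upperPSeries_one : (upperPSeries p G 1).1 = pPrimeCore p G := by
  have h1 : (upperPSeries p G 1).1 =
      (pPrimeCore p (G ⧸ (⊥ : Subgroup G))).comap (QuotientGroup.mk' (⊥ : Subgroup G)) := by
    simp [upperPSeries]
    rfl
  rw [h1]
  set e : G ⧸ (⊥ : Subgroup G) ≃* G := QuotientGroup.quotientBot with he
  have h2 := Cfsg.Agent.Lib.Core.map_pPrimeCore_equiv (p := p) e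
  ext x
  rw [Subgroup.mem_comap, ← h2]
  constructor
  · intro hx
    exact ⟨_, hx, rfl⟩
  · rintro ⟨y, hy, hyx⟩
    have : y = QuotientGroup.mk' (⊥ : Subgroup G) x := by
      apply e.injective
      exact hyx
    rwa [← this]

theorem upperPSeries_two : (upperPSeries p G 2).1 = pPrimePCore p G := by
  have key : ∀ (H : Subgroup G) [H.Normal], H = pPrimeCore p G →
      (pCore p (G ⧸ H)).comap (QuotientGroup.mk' H) = pPrimePCore p G := by
    rintro H _ rfl
    rfl
  have h1 : (upperPSeries p G 2).1 = (pCore p (G ⧸ (upperPSeries p G 1).1)).comap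
      (QuotientGroup.mk' (upperPSeries p G 1).1) := by
    conv_lhs => unfold upperPSeries
    simp
  rw [h1]
  exact key _ (upperPSeries_one p)

/-- `p`-length at most one: the index of `O_{p',p}(G)` is prime to `p`. -/
theorem pLengthLE_one_iff : PLengthLE p 1 G ↔ ¬ p ∣ (pPrimePCore p G).index := by
  have key : ∀ (H : Subgroup G) [H.Normal], H = pPrimePCore p G →
      ((pPrimeCore p (G ⧸ H)).comap (QuotientGroup.mk' H) = ⊤ ↔ ¬ p ∣ H.index) := by
    rintro H _ -
    constructor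
    · intro h hdvd
      have h1 : pPrimeCore p (G ⧸ H) = ⊤ := by
        rw [eq_top_iff]
        intro x _
        obtain ⟨y, rfl⟩ := QuotientGroup.mk'_surjective H x
        have : y ∈ (pPrimeCore p (G ⧸ H)).comap (QuotientGroup.mk' H) := by rw [h]; trivial
        exact this
      have h2 := Cfsg.Agent.Lib.Core.pPrimeCore_coprime p (G ⧸ H)
      rw [h1, Subgroup.card_top, ← Subgroup.index_eq_card] at h2
      exact (Nat.Prime.coprime_iff_not_dvd (Fact.out : p.Prime)).mp h2.symm hdvd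
    · intro h
      have h1 : pPrimeCore p (G ⧸ H) = ⊤ := by
        rw [eq_top_iff]
        refine Cfsg.Agent.Lib.Core.le_pPrimeCore inferInstance ?_
        rw [Subgroup.card_top, ← Subgroup.index_eq_card]
        exact ((Nat.Prime.coprime_iff_not_dvd (Fact.out : p.Prime)).mpr h).symm
      rw [h1]
      rfl
  have h2 : (upperPSeries p G 3).1 = (pPrimeCore p (G ⧸ (upperPSeries p G 2).1)).comap
      (QuotientGroup.mk' (upperPSeries p G 2).1) := by
    conv_lhs => unfold upperPSeries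
    simp
  unfold PLengthLE
  show (upperPSeries p G 3).1 = ⊤ ↔ _
  rw [h2]
  exact (key _ (upperPSeries_two p)).trans (by rw [upperPSeries_two p])


/-- The Sylow `p`-subgroup, `O_{p'}(G)` and `O_{p',p}(G)` in a group of `p`-length one. -/
theorem sylow_le_pPrimePCore (h : ¬ p ∣ (pPrimePCore p G).index) (S : Sylow p G) :
    (S : Subgroup G) ≤ pPrimePCore p G := by
  intro s hs
  have hord : (pPrimePCore p G).index.Coprime (orderOf s) := by
    obtain ⟨k, hk⟩ := (IsPGroup.iff_orderOf.mp S.isPGroup') ⟨s, hs⟩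
    rw [Subgroup.orderOf_mk] at hk
    rw [hk]
    exact Nat.Coprime.pow_right _ ((Nat.Prime.coprime_iff_not_dvd (Fact.out : p.Prime)).mpr h).symm
  refine Cfsg.Agent.Lib.ClassSizes.mem_of_pow_mem_of_coprime _ s _ hord ?_
  exact Subgroup.pow_index_mem _ s

theorem pPrimePCore_le_sup (S : Sylow p G) :
    pPrimePCore p G ≤ (S : Subgroup G) ⊔ pPrimeCore p G := by
  intro x hx
  set O := pPrimeCore p G with hO
  have hx' : QuotientGroup.mk' O x ∈ pCore p (G ⧸ O) := hx
  let T : Sylow p (G ⧸ O) := S.mapSurjective (QuotientGroup.mk'_surjective O)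
  have h1 : pCore p (G ⧸ O) ≤ (T : Subgroup (G ⧸ O)) := Cfsg.Agent.Lib.Core.pCore_le_sylow T
  have h2 := h1 hx'
  have h3 : (T : Subgroup (G ⧸ O)) = (S : Subgroup G).map (QuotientGroup.mk' O) := Sylow.coe_mapSurjective _ _
  rw [h3] at h2
  obtain ⟨s, hs, hsx⟩ := h2
  have h4 : s⁻¹ * x ∈ O := (QuotientGroup.eq (s := O)).mp hsx
  have h5 : x = s * (s⁻¹ * x) := by group
  rw [h5]
  exact Subgroup.mul_mem_sup hs h4

theorem sup_pPrimePCore_eq (h : ¬ p ∣ (pPrimePCore p G).index) (S : Sylow p G) :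
    (S : Subgroup G) ⊔ pPrimeCore p G = pPrimePCore p G := by
  refine le_antisymm (sup_le (sylow_le_pPrimePCore p h S) ?_) (pPrimePCore_le_sup p S)
  intro x hx
  show QuotientGroup.mk' (pPrimeCore p G) x ∈ pCore p _
  have : QuotientGroup.mk' (pPrimeCore p G) x = 1 := (QuotientGroup.eq_one_iff x).mpr hx
  rw [this]
  exact one_mem _

theorem normalizer_sup_pPrimeCore_eq_top (h : ¬ p ∣ (pPrimePCore p G).index) (S : Sylow p G) :
    normalizer ((S : Subgroup G) : Set G) ⊔ pPrimeCore p G = ⊤ := by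
  have h1 := Sylow.normalizer_sup_eq_top' (N := pPrimePCore p G) S (sylow_le_pPrimePCore p h S)
  rw [eq_top_iff, ← h1]
  refine sup_le le_sup_left ?_
  rw [← sup_pPrimePCore_eq p h S]
  refine sup_le ?_ le_sup_right
  exact le_trans Subgroup.le_normalizer le_sup_left

theorem sylow_inf_pPrimeCore (S : Sylow p G) :
    (S : Subgroup G) ⊓ pPrimeCore p G = ⊥ := by
  apply disjoint_iff.mp
  apply Subgroup.disjoint_of_coprime_natCard
  have hc := Cfsg.Agent.Lib.Core.pPrimeCore_coprime p G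
  obtain ⟨k, hk⟩ := (IsPGroup.iff_card.mp S.isPGroup')
  rw [hk]
  exact Nat.Coprime.pow_left _ hc.symm

/-- If `o ∈ O_{p'}(G)` and `y`, `o y o⁻¹` both lie in the Sylow subgroup `S`, then `o` commutes with `y`. -/
theorem commute_of_conj_mem_sylow (S : Sylow p G) {o y : G} (ho : o ∈ pPrimeCore p G)
    (hy : y ∈ (S : Subgroup G)) (hoy : o * y * o⁻¹ ∈ (S : Subgroup G)) : o * y = y * o := by
  have h1 : o * y * o⁻¹ * y⁻¹ ∈ (S : Subgroup G) := S.1.mul_mem hoy (S.1.inv_mem hy)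
  have h2 : o * y * o⁻¹ * y⁻¹ ∈ pPrimeCore p G := by
    have h3 : o * y * o⁻¹ * y⁻¹ = o * (y * o⁻¹ * y⁻¹) := by group
    rw [h3]
    exact mul_mem ho ((pPrimeCore_normal p G).conj_mem _ (inv_mem ho) y)
  have h4 : o * y * o⁻¹ * y⁻¹ ∈ (S : Subgroup G) ⊓ pPrimeCore p G := Subgroup.mem_inf.mpr ⟨h1, h2⟩
  rw [sylow_inf_pPrimeCore, Subgroup.mem_bot] at h4
  have h5 : o * y * o⁻¹ = y := by
    have := congrArg (fun z => z * y) h4
    simpa using this
  calc o * y = o * y * o⁻¹ * o := by group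
    _ = y * o := by rw [h5]

/-- **S1461 (ii)**. -/
theorem exists_factor_of_conj_subset (h : ¬ p ∣ (pPrimePCore p G).index) (S : Sylow p G)
    (Y : Set G) (x : G) (hY : Y ⊆ (S : Subgroup G))
    (hxY : (fun y => x * y * x⁻¹) '' Y ⊆ (S : Subgroup G)) :
    ∃ g ∈ normalizer ((S : Subgroup G) : Set G), ∃ c ∈ centralizer Y, g * c = x := by
  have h1 := normalizer_sup_pPrimeCore_eq_top p h S
  have hx : x ∈ normalizer ((S : Subgroup G) : Set G) ⊔ pPrimeCore p G := by rw [h1]; trivial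
  obtain ⟨n, hn, o, ho, rfl⟩ := Subgroup.mem_sup_of_normal_right.mp hx
  refine ⟨n, hn, o, ?_, rfl⟩
  rw [Subgroup.mem_centralizer_iff]
  intro y hy
  have hyS := hY hy
  have h2 : (n * o) * y * (n * o)⁻¹ ∈ (S : Subgroup G) := hxY ⟨y, hy, rfl⟩
  have h3 : o * y * o⁻¹ ∈ (S : Subgroup G) := by
    have h4 := (Subgroup.mem_normalizer_iff.mp (inv_mem hn) _).mp h2
    have h5 : n⁻¹ * ((n * o) * y * (n * o)⁻¹) * n⁻¹⁻¹ = o * y * o⁻¹ := by group
    rwa [h5] at h4
  exact (commute_of_conj_mem_sylow p S ho hyS h3).symm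

/-- **S1461 (iii)**. -/
theorem exists_conj_into_sylow (hs : Group.IsSolvable G) (h : ¬ p ∣ (pPrimePCore p G).index)
    (S : Sylow p G) (Q : Subgroup G) (hQ : IsPGroup p Q) :
    ∃ x ∈ centralizer ((Q ⊓ (S : Subgroup G) : Subgroup G) : Set G),
      Q.map (MulAut.conj x).toMonoidHom ≤ (S : Subgroup G) := by
  set O := pPrimeCore p G with hO
  have hOn : O.Normal := pPrimeCore_normal p G
  -- `Q ≤ S O`
  obtain ⟨S', hS'⟩ := hQ.exists_le_sylow
  have hQK : Q ≤ (S : Subgroup G) ⊔ O := by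
    rw [sup_pPrimePCore_eq p h S, ← sup_pPrimePCore_eq p h S']
    refine le_trans hS' le_sup_left
  set W : Subgroup G := O ⊔ Q with hW
  set T : Subgroup G := (S : Subgroup G) ⊓ W with hT
  have hOW : O ≤ W := le_sup_left
  have hQW : Q ≤ W := le_sup_right
  have hcQ : (Nat.card O).Coprime (Nat.card Q) := by
    obtain ⟨k, hk⟩ := (IsPGroup.iff_card.mp hQ)
    rw [hk]
    exact Nat.Coprime.pow_right _ (Cfsg.Agent.Lib.Core.pPrimeCore_coprime p G)
  have hOQ : O ⊓ Q = ⊥ := disjoint_iff.mp (Subgroup.disjoint_of_coprime_natCard hcQ)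
  have hOT : O ⊓ T = ⊥ := by
    rw [eq_bot_iff, ← sylow_inf_pPrimeCore p S]
    intro z hz
    exact Subgroup.mem_inf.mpr ⟨(Subgroup.mem_inf.mp (Subgroup.mem_inf.mp hz).2).1, (Subgroup.mem_inf.mp hz).1⟩
  have hOsupT : O ⊔ T = W := by
    apply le_antisymm (sup_le hOW inf_le_right)
    intro w hw
    have hw' : w ∈ O ⊔ (S : Subgroup G) := by
      rw [sup_comm]
      exact (sup_le le_sup_right hQK : W ≤ (S : Subgroup G) ⊔ O) hw
    obtain ⟨o, ho, s, hs', rfl⟩ := Subgroup.mem_sup_of_normal_left.mp hw'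
    refine Subgroup.mul_mem_sup ho ?_
    refine Subgroup.mem_inf.mpr ⟨hs', ?_⟩
    have : s = o⁻¹ * (o * s) := by group
    rw [this]
    exact W.mul_mem (W.inv_mem (hOW ho)) hw
  have hOn' : W ≤ normalizer (O : Set G) := by
    rw [Subgroup.normalizer_eq_top_iff.mpr hOn]
    exact le_top
  have hcop : (Nat.card O).Coprime (O.relIndex W) := by
    have hcard : O.relIndex W * Nat.card O = Nat.card W := Cfsg.Agent.Lib.OddLocal.relIndex_mul_card hOW
    have hcard2 : Nat.card W = Nat.card O * Nat.card Q := by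
      have := Cfsg.Agent.Lib.Hall.card_sup_of_normalizes O Q (le_trans hQW hOn') hOQ
      exact this
    have hOpos : 0 < Nat.card O := Nat.card_pos
    have h3 : O.relIndex W = Nat.card Q := by
      have := hcard.trans hcard2
      rw [mul_comm] at this
      exact Nat.eq_of_mul_eq_mul_left hOpos this
    rw [h3]
    exact hcQ
  have hsolO : Group.IsSolvable O ∨ Group.IsSolvable Q := Or.inl inferInstance
  obtain ⟨a, haO, hconj⟩ := Cfsg.Agent.Lib.Hall.exists_conj_rel' O W Q T hOW hOn' hsolO hcop hOQ rfl hOT hOsupT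
  have hQT : ∀ d ∈ Q, a * d * a⁻¹ ∈ T := by
    intro d hd
    rw [← hconj]
    exact Cfsg.Agent.Lib.Core.conj_mem_conj_smul hd
  refine ⟨a, ?_, ?_⟩
  · rw [Subgroup.mem_centralizer_iff]
    intro d hd
    have hd' := Subgroup.mem_inf.mp hd
    have h6 := (Subgroup.mem_inf.mp (hQT d hd'.1)).1
    exact (commute_of_conj_mem_sylow p S haO hd'.2 h6).symm
  · rintro _ ⟨d, hd, rfl⟩
    exact (Subgroup.mem_inf.mp (hQT d hd)).1

/-- **S1461 (i)**. -/
theorem sylow_le_commutator_normalizer (h : ¬ p ∣ (pPrimePCore p G).index) (S : Sylow p G)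
    (hS : (S : Subgroup G) ≤ commutator G) :
    (S : Subgroup G) ≤ ⁅normalizer ((S : Subgroup G) : Set G), normalizer ((S : Subgroup G) : Set G)⁆ := by
  set N := normalizer ((S : Subgroup G) : Set G) with hN
  set O := pPrimeCore p G with hO
  have hOn : O.Normal := pPrimeCore_normal p G
  have h1 : O ⊔ N = ⊤ := by rw [sup_comm]; exact normalizer_sup_pPrimeCore_eq_top p h S
  have h2 := commutator_le_sup_of_sup_eq_top h1
  intro s hsS
  have hs' := h2 (hS hsS)
  obtain ⟨u, hu, o, ho, rfl⟩ := Subgroup.mem_sup_of_normal_right.mp hs'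
  have huN : u ∈ N := Cfsg.Agent.Lib.OddLocal.commutator_self_le N hu
  have hoN : o ∈ N := by
    have h3 : o = u⁻¹ * (u * o) := by group
    rw [h3]
    exact N.mul_mem (N.inv_mem huN) (Subgroup.le_normalizer hsS)
  refine mem_of_mul_of_pow_eq_one (n := Nat.card O) hu ?_ ?_ ?_
  · exact Cfsg.Agent.Lib.OddLocal.commutator_self_normalized N hoN
  · have h7 : (⟨o, ho⟩ : O) ^ Nat.card O = 1 := pow_card_eq_one'
    exact congrArg Subtype.val h7
  · obtain ⟨k, hk⟩ := (IsPGroup.iff_orderOf.mp S.isPGroup') ⟨_, hsS⟩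
    rw [Subgroup.orderOf_mk] at hk
    rw [hk]
    exact Nat.Coprime.pow_right _ (Cfsg.Agent.Lib.Core.pPrimeCore_coprime p G)

end PLength

end Cfsg.Agent.Lib.OddLocal
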