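import Mathlib
import Cfsg.Agent.Lib.PGroup.HHSG2

/-!
# Automorphisms of odd solvable groups acting without fixed points on the Fitting subgroup

Variant of the Shult--Gross argument: a `p`-power automorphism of a solvable group of odd order
prime to `p` with no fixed points in `F(G)`.  The last step of `σ` acts trivially mod `F(G)`.
-/

set_option autoImplicit false

namespace Cfsg.Agent.Lib.OddLocal

open Cfsg Subgroup Cfsg.Agent.Lib.Core Cfsg.Agent.Lib.PGroup.HH
open scoped commutatorElement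

variable {G : Type*} [Group G] [Finite G]

/-- An automorphism of `p`-power order coprime to the group fixes a Sylow subgroup. -/
theorem exists_inv_sylow_cop {p m : ℕ} (hp : p.Prime) (hcop : p.Coprime (Nat.card G)) (σ : G ≃* G)
    (hσ : ∀ a, σ^[p ^ m] a = a) (q : ℕ) [Fact q.Prime] :
    ∃ S : Sylow q G, ∀ a ∈ S, σ a ∈ S := by
  classical
  haveI hpF : Fact p.Prime := ⟨hp⟩
  have hσ' : (σ : MulAut G) ^ p ^ m = 1 := by
    ext a
    rw [mulAut_pow_apply, hσ]
    rfl
  let H : Subgroup (MulAut G) := Subgroup.zpowers σ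
  have hH : IsPGroup p H := by
    rintro ⟨_, k, rfl⟩
    refine ⟨m, Subtype.ext ?_⟩
    show ((σ : MulAut G) ^ k) ^ p ^ m = 1
    rw [← zpow_natCast, ← zpow_mul, mul_comm, zpow_mul, zpow_natCast, hσ', one_zpow]
  have hnd : ¬ p ∣ Nat.card (Sylow q G) := by
    intro h
    obtain ⟨S⟩ : Nonempty (Sylow q G) := inferInstance
    have h1 : p ∣ Nat.card G := (h.trans (Sylow.card_dvd_index S)).trans (Subgroup.index_dvd_card _)
    exact hp.one_lt.ne' (Nat.dvd_one.mp (hcop ▸ Nat.dvd_gcd (dvd_refl p) h1))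
  obtain ⟨S, hS⟩ := hH.nonempty_fixed_point_of_prime_not_dvd_card (Sylow q G) hnd
  refine ⟨S, fun a ha => ?_⟩
  have h1 : (⟨σ, Subgroup.mem_zpowers σ⟩ : H) • S = S := hS _
  have h2 : σ a ∈ (((σ : MulAut G) • S : Sylow q G) : Subgroup G) := by
    exact Subgroup.smul_mem_pointwise_smul a σ (S : Subgroup G) ha
  have h3 : ((σ : MulAut G) • S : Sylow q G) = S := h1
  rwa [h3] at h2

theorem frat_odd {p q r m : ℕ} (hp : p.Prime) (hq : q.Prime) (hr : r.Prime) (hp2 : p ≠ 2) (hq2 : q ≠ 2) (hpq : p ≠ q)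
    (hpr : p ≠ r) (hqr : q ≠ r) (hm : 0 < m) (σ : G ≃* G) (P : Subgroup G) [hPn : P.Normal] (hfpf : ∀ g ∈ P, σ g = g → g = 1)
    (hσK : ∀ g, σ^[p ^ m] g = g) (hP : IsPGroup r P)
    (hPσ : ∀ a ∈ P, σ a ∈ P) (Q₁ : Subgroup G) (hQ₁ : IsPGroup q Q₁) (hQσ : ∀ a ∈ Q₁, σ a ∈ Q₁)
    {g : G} (hg : g ∈ Q₁) : g⁻¹ * σ^[p ^ (m - 1)] g ∈ centralizer (P : Set G) := by
  classical
  by_contra ht
  haveI hrF : Fact r.Prime := ⟨hr⟩
  haveI hqF : Fact q.Prime := ⟨hq⟩
  haveI := Fintype.ofFinite Q₁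
  set t : G := g⁻¹ * σ^[p ^ (m - 1)] g with htdef
  -- the Frattini quotient
  let Φ : Subgroup P := frattini P
  haveI hΦn : Φ.Normal := inferInstance
  let A := P ⧸ Φ
  have hcomm : ∀ a b : A, a * b = b * a := by
    intro a b
    induction a using QuotientGroup.induction_on with | _ a => ?_
    induction b using QuotientGroup.induction_on with | _ b => ?_
    rw [← QuotientGroup.mk_mul, ← QuotientGroup.mk_mul, QuotientGroup.eq]
    have h1 : ⁅b⁻¹, a⁻¹⁆ ∈ commutator P :=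
      Subgroup.commutator_mem_commutator (Subgroup.mem_top _) (Subgroup.mem_top _)
    have e : (a * b)⁻¹ * (b * a) = ⁅b⁻¹, a⁻¹⁆ := by
      rw [commutatorElement_def]; group
    rw [e]
    exact Cfsg.Agent.Lib.Transfer.commutator_le_frattini hP h1
  have hexp : ∀ a : A, a ^ r = 1 := by
    intro a
    induction a using QuotientGroup.induction_on with | _ a => ?_
    rw [← QuotientGroup.mk_pow, QuotientGroup.eq_one_iff]
    exact Cfsg.Agent.Lib.Transfer.pow_mem_frattini hP a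
  haveI : Fact (IsElem r A) := ⟨⟨hcomm, hexp⟩⟩
  have hPnt : ∃ s ∈ P, s ≠ 1 := by
    by_contra hcon
    push Not at hcon
    apply ht
    rw [Subgroup.mem_centralizer_iff]
    intro s hs
    rw [hcon s hs, one_mul, mul_one]
  haveI hAnt : Nontrivial A := by
    obtain ⟨s, hs, hs1⟩ := hPnt
    haveI : Nontrivial P := ⟨⟨⟨s, hs⟩, 1, fun h => hs1 (congrArg Subtype.val h)⟩⟩
    rcases eq_top_or_exists_le_coatom (⊥ : Subgroup P) with h | ⟨M, hM, -⟩
    · exact absurd h bot_ne_top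
    · have hΦM : Φ ≤ M := frattini_le_coatom hM
      obtain ⟨a, ha⟩ : ∃ a, a ∉ M := by
        by_contra hcon
        push Not at hcon
        exact hM.1 ((Subgroup.eq_top_iff' M).mpr hcon)
      refine ⟨⟨(a : A), 1, fun h => ha (hΦM ?_)⟩⟩
      exact (QuotientGroup.eq_one_iff a).mp h
  let α : P ≃* P := subAut P σ hPσ
  have hαc : ∀ a : P, ((α a : P) : G) = σ a.1 := fun a => rfl
  have hαfpf : ∀ a, α a = a → a = 1 := by
    intro a ha
    apply Subtype.ext
    exact hfpf a.1 a.2 (congrArg Subtype.val ha)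
  let cP : G →* MulAut P := MulAut.conjNormal
  have hcP : ∀ (x : G) (a : P), ((cP x a : P) : G) = x * a * x⁻¹ := fun x a => MulAut.conjNormal_apply x a
  let B : Q₁ →* MulAut A := (frattiniAct P).comp (cP.comp Q₁.subtype)
  let act : Q₁ →* Module.End (ZMod r) (EMod r A) := (eEnd (p := r)).comp B
  let αA : MulAut A := frattiniAct P α
  let x₀ : Module.End (ZMod r) (EMod r A) := eEnd αA
  let σQ : Q₁ ≃* Q₁ := subAut Q₁ σ hQσ
  have hσQit : ∀ (i : ℕ) (b : Q₁), ((σQ^[i] b : Q₁) : G) = σ^[i] b.1 := subAut_iter Q₁ σ hQσ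
  have hcompat : ∀ b : Q₁, αA * B b = B (σQ b) * αA := by
    intro b
    show frattiniAct P α * frattiniAct P (cP b.1) = frattiniAct P (cP (σQ b).1) * frattiniAct P α
    rw [← map_mul, ← map_mul]
    congr 1
    ext a
    show ((α (cP b.1 a) : P) : G) = ((cP (σQ b).1 (α a) : P) : G)
    rw [hαc, hcP, hcP, hαc, map_mul, map_mul, map_inv]
    rfl
  have hx : ∀ b, x₀ * act b = act (σQ b) * x₀ := by
    intro b
    show eEnd αA * eEnd (B b) = eEnd (B (σQ b)) * eEnd αA
    rw [← map_mul, ← map_mul, hcompat]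
  have hαK : α ^ p ^ m = 1 := by
    ext a
    rw [mulAut_pow_apply]
    have : ((α^[p ^ m] a : P) : G) = σ^[p ^ m] a.1 := subAut_iter P σ hPσ (p ^ m) a
    rw [this, hσK]
    rfl
  have hxK : x₀ ^ p ^ m = 1 := by
    show (eEnd αA) ^ p ^ m = 1
    rw [← map_pow]
    show eEnd ((frattiniAct P α) ^ p ^ m) = 1
    rw [← map_pow, hαK, map_one, map_one]
  have hfree : ∀ v, x₀ v = v → v = 0 := by
    intro v hv
    obtain ⟨a, ha⟩ := QuotientGroup.mk_surjective (eTo v : A)
    have hv' : v = eOf r (a : A) := by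
      rw [← eOf_eTo v]
      exact congrArg (eOf r) ha.symm
    rw [hv'] at hv
    have h1 : ((α a : P) : A) = a := congrArg eTo hv
    rw [QuotientGroup.eq] at h1
    have hΦα : ∀ b ∈ Φ, α b ∈ Φ := fun b hb =>
      (Subgroup.characteristic_iff_le_comap.mp (inferInstance : (frattini P).Characteristic) α) hb
    have h2 := fix_mod_mem α hαfpf hΦα h1
    rw [hv']
    exact (QuotientGroup.eq_one_iff a).mpr h2
  have hex : ∃ b, act (b⁻¹ * σQ^[p ^ (m - 1)] b) ≠ 1 := by
    refine ⟨⟨g, hg⟩, fun h => ?_⟩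
    apply ht
    set t' : Q₁ := (⟨g, hg⟩ : Q₁)⁻¹ * σQ^[p ^ (m - 1)] ⟨g, hg⟩ with ht'
    have ht'c : (t' : G) = t := by
      rw [ht', Subgroup.coe_mul, hσQit]
      rfl
    have hB : B t' = 1 := eEnd_eq_one (p := r) h
    have hle := Cfsg.Agent.Lib.Hall.le_centralizer_of_frattini (Subgroup.zpowers t) P
      (by rw [Subgroup.normalizer_eq_top]; exact le_top)
      (by
        have htQ : t ∈ Q₁ := by rw [← ht'c]; exact t'.2
        have h1 : IsPGroup q (Subgroup.zpowers t) := hQ₁.to_le (Subgroup.zpowers_le.mpr htQ)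
        have h2 : IsPGroup r (frattini P) := hP.to_subgroup _
        obtain ⟨a, ha⟩ := IsPGroup.iff_card.mp h1
        obtain ⟨b, hb⟩ := IsPGroup.iff_card.mp h2
        rw [ha, hb]
        exact Nat.Coprime.pow _ _ ((Nat.coprime_primes hq hr).mpr hqr))
      (by
        intro a ha k hk
        obtain ⟨j, rfl⟩ := Subgroup.mem_zpowers_iff.mp ha
        have hBj : B (t' ^ j) = 1 := by rw [map_zpow, hB, one_zpow]
        have hcoe : ((t' ^ j : Q₁) : G) = t ^ j := by
          rw [Subgroup.coe_zpow, ht'c]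
        let k' : P := ⟨k, hk⟩
        let u : P := cP (t ^ j) k'
        have h1 : (B (t' ^ j)) (k' : A) = (k' : A) := by rw [hBj]; rfl
        have h2 : (u : A) = (k' : A) := by
          rw [← h1]
          show _ = ((cP ((t' ^ j : Q₁) : G) k' : P) : A)
          rw [hcoe]
        rw [QuotientGroup.eq] at h2
        have h3 : u * k'⁻¹ ∈ Φ := by
          have h4 := hΦn.conj_mem _ (Φ.inv_mem h2) k'
          convert h4 using 1
          group
        refine ⟨u * k'⁻¹, h3, ?_⟩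
        show ((u : P) : G) * (k' : G)⁻¹ = _
        rw [hcP])
    exact hle (Subgroup.mem_zpowers t)
  obtain ⟨-, ⟨n, m₀, hn, hm₀, -, h3⟩, -⟩ := hh_module (c := r) (M := EMod r A) hq hp hqr.symm hpr.symm hpq hm (Or.inl hp2) x₀ hxK hfree
    hQ₁ act σQ (fun b => Subtype.ext (by rw [hσQit]; exact hσK b.1)) hx hex
  have hqo : Odd q := hq.odd_of_ne_two hq2
  have hpo : Odd p := hp.odd_of_ne_two hp2
  have e1 : Even (q ^ n + 1) := (hqo.pow).add_one
  have e2 : Odd (p ^ m₀) := hpo.pow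
  rw [h3] at e1
  exact (Nat.not_even_iff_odd.mpr e2) e1


/-- Coprime action: a coset invariant under `σ` contains a fixed point. -/
theorem exists_fix_of_coset {H : Type*} [Group H] [Finite H] (F : Subgroup H) (σ : H ≃* H)
    (hσF : ∀ a ∈ F, σ a ∈ F) {p m : ℕ} (hp : p.Prime) (hσ : ∀ a, σ^[p ^ m] a = a)
    (hcop : p.Coprime (Nat.card F)) (k : H) (hk : k⁻¹ * σ k ∈ F) : ∃ c, σ c = c ∧ k⁻¹ * c ∈ F := by
  classical
  haveI : Fact p.Prime := ⟨hp⟩
  let X := {y : H // k⁻¹ * y ∈ F}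
  haveI := Fintype.ofFinite X
  have hmem : ∀ y : X, k⁻¹ * σ y.1 ∈ F := by
    intro y
    have e : k⁻¹ * σ y.1 = (k⁻¹ * σ k) * σ (k⁻¹ * y.1) := by
      rw [map_mul, map_inv]; group
    rw [e]
    exact F.mul_mem hk (hσF _ y.2)
  let f : Function.End X := fun y => ⟨σ y.1, hmem y⟩
  have hpow : ∀ (j : ℕ) (y : X), ((f ^ j) y).1 = σ^[j] y.1 := by
    intro j
    induction j with
    | zero => intro y; rfl
    | succ j ih =>
      intro y
      rw [pow_succ, Function.iterate_succ_apply]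
      exact ih (f y)
  have hf : f ^ p ^ m = 1 := by
    funext y
    apply Subtype.ext
    rw [hpow, hσ]
    rfl
  have hm := Equiv.Perm.card_fixedPoints_modEq hf
  by_contra hcon
  push Not at hcon
  have h0 : Fintype.card (Function.fixedPoints f) = 0 := by
    rw [Fintype.card_eq_zero_iff]
    refine ⟨fun y => ?_⟩
    obtain ⟨y, hy⟩ := y
    have h1 : σ y.1 = y.1 := congrArg Subtype.val hy
    exact hcon y.1 h1 y.2
  have hX : Fintype.card X = Nat.card F := by
    rw [← Nat.card_eq_fintype_card]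
    exact Nat.card_congr
      { toFun := fun y => ⟨k⁻¹ * y.1, y.2⟩
        invFun := fun z => ⟨k * z.1, by simpa using z.2⟩
        left_inv := fun y => Subtype.ext (by simp)
        right_inv := fun z => Subtype.ext (by simp) }
  rw [h0, hX] at hm
  have h2 : p ∣ Nat.card F := (Nat.modEq_zero_iff_dvd).mp hm
  exact hp.one_lt.ne' (Nat.dvd_one.mp (hcop ▸ Nat.dvd_gcd (dvd_refl p) h2))

/-- **The key claim**: the last step of `σ` acts trivially modulo the Fitting subgroup. -/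
theorem key_claim_odd {G : Type*} [Group G] [Finite G] [hsolv : Group.IsSolvable G] (hodd : Odd (Nat.card G)) {p n : ℕ} (hp : p.Prime) (hp2 : p ≠ 2)
    (hcopG : p.Coprime (Nat.card G)) (σ : G ≃* G) (hfpf : ∀ g ∈ fittingSubgroup G, σ g = g → g = 1) (hσK : ∀ g, σ^[p ^ (n + 1)] g = g) (g₀ : G) :
    g₀⁻¹ * σ^[p ^ n] g₀ ∈ fittingSubgroup G := by
  classical
  by_contra hg₀
  let Fit := fittingSubgroup G
  have hFitσ : ∀ a ∈ Fit, σ a ∈ Fit := fun a ha =>
    (Subgroup.characteristic_iff_le_comap.mp (fittingSubgroup_characteristic G) σ) ha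
  let π : G →* G ⧸ Fit := QuotientGroup.mk' Fit
  have hπs : Function.Surjective π := QuotientGroup.mk'_surjective Fit
  let τ : (G ⧸ Fit) ≃* (G ⧸ Fit) := quotAut Fit σ hFitσ
  have hτ : ∀ g, τ (π g) = π (σ g) := fun g => rfl
  have hτit : ∀ (i : ℕ) (g : G), τ^[i] (π g) = π (σ^[i] g) := quotAut_iter Fit σ hFitσ
  let y' : G ⧸ Fit →* G ⧸ Fit := (itE τ (p ^ n)).toMonoidHom
  have hy' : ∀ a, y' a = τ^[p ^ n] a := fun a => rfl
  have hyπ : ∀ g, y' (π g) = π (σ^[p ^ n] g) := fun g => hτit _ g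
  have hcopH : p.Coprime (Nat.card (G ⧸ Fit)) :=
    Nat.Coprime.coprime_dvd_right ⟨Nat.card Fit, by
      rw [mul_comm]
      exact (Subgroup.card_mul_index Fit).symm⟩ hcopG
  have hyp : ∀ a, y'^[p] a = a := by
    intro a
    obtain ⟨g, rfl⟩ := hπs a
    have e : ∀ j : ℕ, y'^[j] (π g) = π (σ^[p ^ n * j] g) := by
      intro j
      induction j with
      | zero => rfl
      | succ j ih =>
        rw [Function.iterate_succ_apply', ih, hyπ, ← Function.iterate_add_apply, mul_add, mul_one, add_comm]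
    rw [e, ← pow_succ, hσK]
  haveI : Group.IsSolvable (G ⧸ Fit) := inferInstance
  -- Step 1: `y'` is nontrivial on `F(G/F(G))`
  have hstep1 : ∃ a ∈ fittingSubgroup (G ⧸ Fit), y' a ≠ a := by
    by_contra hcon
    push Not at hcon
    apply hg₀
    have hall := y_trivial_of_L hcopH y' hyp (fun a => by
      apply hcon
      apply Cfsg.Agent.Lib.Geo.centralizer_fitting_le_of_solvable
      rw [Subgroup.mem_centralizer_iff]
      intro b hb
      have h1 : a * b * a⁻¹ ∈ fittingSubgroup (G ⧸ Fit) :=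
        (fittingSubgroup_normal (G ⧸ Fit)).conj_mem b hb a
      have h2 := hcon _ h1
      rw [map_mul, map_mul, map_inv, hcon b hb] at h2
      have h3 : (a⁻¹ * y' a) * b = b * (a⁻¹ * y' a) := by
        calc (a⁻¹ * y' a) * b = a⁻¹ * (y' a * b * (y' a)⁻¹) * y' a := by group
          _ = a⁻¹ * (a * b * a⁻¹) * y' a := by rw [h2]
          _ = b * (a⁻¹ * y' a) := by group
      exact h3.symm) (π g₀)
    rw [hyπ] at hall
    have h4 : (π g₀)⁻¹ * π (σ^[p ^ n] g₀) = 1 := by rw [hall, inv_mul_cancel]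
    rw [← map_inv, ← map_mul] at h4
    exact (QuotientGroup.eq_one_iff _).mp h4
  -- Step 2: on a primary component
  have hstep2 : ∃ q : Nat.Primes, ∃ a ∈ pCore (q : ℕ) (G ⧸ Fit), y' a ≠ a := by
    by_contra hcon
    push Not at hcon
    obtain ⟨a, ha, hne⟩ := hstep1
    apply hne
    have hle : fittingSubgroup (G ⧸ Fit) ≤ MonoidHom.eqLocus y' (MonoidHom.id _) := by
      rw [fittingSubgroup_eq_iSup_pCore]
      exact iSup_le fun q b hb => hcon q b hb
    exact hle ha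
  obtain ⟨⟨q, hq⟩, ā, hā, hne⟩ := hstep2
  haveI hqF : Fact q.Prime := ⟨hq⟩
  change ā ∈ pCore q (G ⧸ Fit) at hā
  -- Step 3: the preimage and an invariant Sylow subgroup
  let L : Subgroup G := (pCore q (G ⧸ Fit)).comap π
  haveI : (pCore q (G ⧸ Fit)).Normal := pCore_normal q _
  haveI hLn : L.Normal := Subgroup.Normal.comap inferInstance π
  have hLσ : ∀ a ∈ L, σ a ∈ L := by
    intro a ha
    show π (σ a) ∈ pCore q (G ⧸ Fit)
    rw [← hτ]
    exact (Subgroup.characteristic_iff_le_comap.mp (pCore_characteristic q (G ⧸ Fit)) τ) ha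
  have hP₀ : IsPGroup q (pCore q (G ⧸ Fit)) := pCore_isPGroup q _
  have hLq : ∀ x ∈ L, ∃ k : ℕ, x ^ q ^ k ∈ fittingSubgroup G := by
    intro x hx
    obtain ⟨k, hk⟩ := hP₀ ⟨π x, hx⟩
    refine ⟨k, ?_⟩
    have h1 : π x ^ q ^ k = 1 := congrArg Subtype.val hk
    rw [← map_pow] at h1
    exact (QuotientGroup.eq_one_iff _).mp h1
  let σL : L ≃* L := subAut L σ hLσ
  have hσLp : ∀ a, σL^[p ^ (n + 1)] a = a := by
    intro a
    apply Subtype.ext
    rw [subAut_iter L σ hLσ]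
    exact hσK a.1
  have hcopL : p.Coprime (Nat.card L) :=
    Nat.Coprime.coprime_dvd_right (Subgroup.card_subgroup_dvd_card L) hcopG
  obtain ⟨S, hS⟩ := exists_inv_sylow_cop hp hcopL σL hσLp q
  let f : L →* pCore q (G ⧸ Fit) := (π.comp L.subtype).codRestrict (pCore q (G ⧸ Fit)) (fun x => x.2)
  have hf : Function.Surjective f := by
    rintro ⟨b, hb⟩
    obtain ⟨h, rfl⟩ := hπs b
    exact ⟨⟨h, hb⟩, rfl⟩
  obtain ⟨h, rfl⟩ := hπs ā
  obtain ⟨gt, hgtS, hgt⟩ := sylow_surj f hf hP₀ S ⟨h, hā⟩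
  have hπg : π gt.1 = π h := congrArg Subtype.val hgt
  set g : G := gt.1 with hgdef
  let Q₁ : Subgroup G := (S : Subgroup L).map L.subtype
  have hQ₁ : IsPGroup q Q₁ := S.isPGroup'.map _
  have hQσ : ∀ a ∈ Q₁, σ a ∈ Q₁ := by
    rintro _ ⟨s, hs, rfl⟩
    exact ⟨σL s, hS s hs, rfl⟩
  have hgQ : g ∈ Q₁ := ⟨gt, hgtS, rfl⟩
  set t : G := g⁻¹ * σ^[p ^ n] g with htdef
  have htF : t ∉ fittingSubgroup G := by
    intro h1
    apply hne
    have h2 : π t = 1 := (QuotientGroup.eq_one_iff _).mpr h1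
    rw [htdef, map_mul, map_inv, ← hyπ, hπg, inv_mul_eq_one] at h2
    exact h2.symm
  have hgL : g ∈ L := gt.2
  have hitL : ∀ (j : ℕ), ∀ r ∈ L, σ^[j] r ∈ L := by
    intro j r hr
    induction j with
    | zero => exact hr
    | succ j ih =>
      rw [Function.iterate_succ_apply']
      exact hLσ _ ih
  have htL : t ∈ L := L.mul_mem (L.inv_mem hgL) (hitL _ _ hgL)
  -- Step 5: a prime `r`
  have hstep5 : ¬ ∀ r : ℕ, r.Prime → r ≠ q → ∀ s ∈ pCore r G, t * s = s * t :=
    fun hcon => htF (mem_fit_of_centralizes L hLq htL hcon)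
  push Not at hstep5
  obtain ⟨r, hr, hrq, s, hs, hts⟩ := hstep5
  haveI hrF : Fact r.Prime := ⟨hr⟩
  let P : Subgroup G := pCore r G
  haveI hPn : P.Normal := pCore_normal r G
  have hPp : IsPGroup r P := pCore_isPGroup r G
  have hPσ : ∀ a ∈ P, σ a ∈ P := fun a ha =>
    (Subgroup.characteristic_iff_le_comap.mp (pCore_characteristic r G) σ) ha
  have hg1 : g ≠ 1 := by
    intro h1
    apply htF
    have : t = 1 := by
      rw [htdef, h1, iter_one, inv_one, one_mul]
    rw [this]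
    exact Subgroup.one_mem _
  have hs1 : s ≠ 1 := by
    rintro rfl
    simp at hts
  have hdvd : ∀ (X : Subgroup G) (u : ℕ) (_ : u.Prime), IsPGroup u X → ∀ x ∈ X, x ≠ 1 → p ≠ u := by
    intro X u hu hX x hx hx1 hpu
    subst hpu
    haveI : Fact p.Prime := ⟨hu⟩
    have hnt : Nontrivial X := ⟨⟨⟨x, hx⟩, 1, fun h => hx1 (congrArg Subtype.val h)⟩⟩
    obtain ⟨a, ha⟩ := IsPGroup.iff_card.mp hX
    have ha0 : a ≠ 0 := by
      rintro rfl
      have h1 := Finite.one_lt_card (α := X)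
      rw [ha] at h1
      simp at h1
    have h2 : p ∣ Nat.card X := by
      rw [ha]
      exact dvd_pow_self p ha0
    have h3 : p ∣ Nat.card G := h2.trans (Subgroup.card_subgroup_dvd_card X)
    exact hp.one_lt.ne' (Nat.dvd_one.mp (hcopG ▸ Nat.dvd_gcd (dvd_refl p) h3))
  have hpq : p ≠ q := hdvd Q₁ q hq hQ₁ g hgQ hg1
  have hpr : p ≠ r := hdvd P r hr hPp s hs hs1
  have hq2 : q ≠ 2 := by
    rintro rfl
    have h2 : 2 ∣ Nat.card G := by
      obtain ⟨a, ha⟩ := IsPGroup.iff_card.mp hQ₁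
      have ha0 : a ≠ 0 := by
        rintro rfl
        have hnt : Nontrivial Q₁ := ⟨⟨⟨g, hgQ⟩, 1, fun h => hg1 (congrArg Subtype.val h)⟩⟩
        have h1 := Finite.one_lt_card (α := Q₁)
        rw [ha] at h1
        simp at h1
      exact (by rw [ha]; exact dvd_pow_self 2 ha0 : 2 ∣ Nat.card Q₁).trans (Subgroup.card_subgroup_dvd_card Q₁)
    exact (Nat.not_even_iff_odd.mpr hodd) (even_iff_two_dvd.mpr h2)
  have hPfit : P ≤ fittingSubgroup G := by
    haveI : Group.IsNilpotent P := hPp.isNilpotent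
    exact le_fittingSubgroup hPn inferInstance
  have hmain := frat_odd (m := n + 1) hp hq hr hp2 hq2 hpq hpr hrq.symm (Nat.succ_pos n) σ P (fun a ha h => hfpf a (hPfit ha) h) hσK hPp hPσ Q₁ hQ₁ hQσ hgQ
  rw [Nat.add_sub_cancel, Subgroup.mem_centralizer_iff] at hmain
  exact hts (hmain s hs).symm


end Cfsg.Agent.Lib.OddLocal
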