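import Mathlib
import Cfsg.Agent.Lib.Core.Solvable
import Cfsg.Agent.Lib.Core.Basic
import Cfsg.Agent.Lib.Hall.FPFAction
import Cfsg.Agent.Lib.Hall.CoprimeAction
import Cfsg.Agent.Lib.Hall.CoprimeLemmas
import Cfsg.Agent.Lib.OddLocal.TypeP
import Cfsg.Agent.Lib.PGroup.Basic
import Cfsg.Prelude.Def_OddOrderLocal

/-!
# Solvable groups all of whose elements have prime-power order: S1475
-/

set_option autoImplicit false

namespace Cfsg.Agent.Lib.OddLocal

open Cfsg Subgroup
open scoped commutatorElement Pointwise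

theorem not_isPrimePow_mul {a b : ℕ} (hc : a.Coprime b) (ha : a ≠ 1) (hb : b ≠ 1) : ¬ IsPrimePow (a * b) := by
  rintro ⟨p, k, hp, hk, h⟩
  have hp' : p.Prime := hp.nat_prime
  have h1 : a ∣ p ^ k := h ▸ Dvd.intro _ rfl
  have h2 : b ∣ p ^ k := h ▸ Dvd.intro_left _ rfl
  obtain ⟨i, _, rfl⟩ := (Nat.dvd_prime_pow hp').mp h1
  obtain ⟨j, _, rfl⟩ := (Nat.dvd_prime_pow hp').mp h2
  rcases Nat.eq_zero_or_pos i with rfl | hi
  · exact ha (pow_zero p)
  rcases Nat.eq_zero_or_pos j with rfl | hj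
  · exact hb (pow_zero p)
  have h3 : p ∣ Nat.gcd (p ^ i) (p ^ j) := Nat.dvd_gcd (dvd_pow_self p hi.ne') (dvd_pow_self p hj.ne')
  rw [hc] at h3
  exact hp'.one_lt.ne' (Nat.dvd_one.mp h3)

variable {G : Type*} [Group G] [Finite G]

/-- In a CP group, nontrivial commuting elements do not have coprime orders. -/
theorem cp_no_commute (h : ∀ g : G, IsPrimePow (orderOf g) ∨ g = 1) {a b : G} (hab : a * b = b * a)
    (hc : (orderOf a).Coprime (orderOf b)) (ha : a ≠ 1) (hb : b ≠ 1) : False := by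
  have h1 : orderOf (a * b) = orderOf a * orderOf b :=
    (Commute.orderOf_mul_eq_mul_orderOf_of_coprime hab hc)
  have ha1 : orderOf a ≠ 1 := by rwa [Ne, orderOf_eq_one_iff]
  have hb1 : orderOf b ≠ 1 := by rwa [Ne, orderOf_eq_one_iff]
  rcases h (a * b) with h2 | h2
  · rw [h1] at h2
    exact not_isPrimePow_mul hc ha1 hb1 h2
  · rw [h2, orderOf_one] at h1
    exact ha1 (Nat.eq_one_of_mul_eq_one_right h1.symm)

theorem cp_fpf (h : ∀ g : G, IsPrimePow (orderOf g) ∨ g = 1) {p : ℕ} [Fact p.Prime] {V A : Subgroup G}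
    (hV : IsPGroup p V) (hA : (Nat.card A).Coprime p) : ∀ a ∈ A, a ≠ 1 → V ⊓ centralizer {a} = ⊥ := by
  intro a ha ha1
  rw [eq_bot_iff]
  intro v hv
  obtain ⟨hv1, hv2⟩ := Subgroup.mem_inf.mp hv
  rw [Subgroup.mem_bot]
  by_contra hv3
  have hc1 : a * v = v * a := Subgroup.mem_centralizer_iff.mp hv2 a rfl
  have h1 : (orderOf a).Coprime p := by
    have := orderOf_dvd_natCard (⟨a, ha⟩ : A)
    rw [Subgroup.orderOf_mk] at this
    exact Nat.Coprime.coprime_dvd_left this hA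
  obtain ⟨k, hk⟩ := (IsPGroup.iff_orderOf.mp hV) ⟨v, hv1⟩
  rw [Subgroup.orderOf_mk] at hk
  refine cp_no_commute h hc1 ?_ ha1 hv3
  rw [hk]
  exact Nat.Coprime.pow_right _ h1

theorem cp_primes_aux (h : ∀ g : G, IsPrimePow (orderOf g) ∨ g = 1) (hs : Group.IsSolvable G) [Nontrivial G] :
    ∃ p q : ℕ, ∀ r : ℕ, r.Prime → r ∣ Nat.card G → r = p ∨ r = q := by
  obtain ⟨p, hp, hP⟩ := Cfsg.Agent.Lib.Core.exists_prime_pCore_ne_bot (G := G)
  haveI : Fact p.Prime := ⟨hp⟩
  set P := pCore p G with hPdef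
  have hPp : IsPGroup p P := Cfsg.Agent.Lib.Core.pCore_isPGroup p G
  by_cases htriv : Nontrivial (G ⧸ P)
  swap
  · refine ⟨p, p, fun r hr hrG => ?_⟩
    left
    have h1 : P = ⊤ := by
      rw [not_nontrivial_iff_subsingleton] at htriv
      rw [eq_top_iff]
      intro x _
      have : (QuotientGroup.mk' P) x = 1 := Subsingleton.elim _ _
      exact (QuotientGroup.eq_one_iff x).mp this
    have h2 : Nat.card G = Nat.card P := by rw [h1, Subgroup.card_top]
    obtain ⟨k, hk⟩ := IsPGroup.iff_card.mp hPp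
    rw [h2, hk] at hrG
    exact (Nat.prime_dvd_prime_iff_eq hr hp).mp (hr.dvd_of_dvd_pow hrG)
  haveI : Group.IsSolvable (G ⧸ P) := inferInstance
  obtain ⟨q, hq, hQbar⟩ := Cfsg.Agent.Lib.Core.exists_prime_pCore_ne_bot (G := G ⧸ P)
  haveI : Fact q.Prime := ⟨hq⟩
  have hqp : q ≠ p := by
    rintro rfl
    exact hQbar Cfsg.Agent.Lib.Core.pCore_quotient_pCore_eq_bot
  refine ⟨p, q, fun r hr hrG => ?_⟩
  by_contra hcon
  push Not at hcon
  obtain ⟨hrp, hrq⟩ := hcon
  haveI : Fact r.Prime := ⟨hr⟩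
  set π := QuotientGroup.mk' P with hπ
  have hπs : Function.Surjective π := QuotientGroup.mk'_surjective P
  set H : Subgroup G := (pCore q (G ⧸ P)).comap π with hH
  have hHn : H.Normal := Subgroup.Normal.comap inferInstance π
  have hHcard : Nat.card H = Nat.card P * Nat.card (pCore q (G ⧸ P)) := by
    rw [hH, Cfsg.Agent.Lib.Core.card_comap_of_surjective π hπs, QuotientGroup.ker_mk']
  have hQbarp : IsPGroup q (pCore q (G ⧸ P)) := Cfsg.Agent.Lib.Core.pCore_isPGroup q _
  obtain ⟨a, ha⟩ := IsPGroup.iff_card.mp hPp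
  obtain ⟨b, hb⟩ := IsPGroup.iff_card.mp hQbarp
  have hqH : q ∣ Nat.card H := by
    rw [hHcard, hb]
    refine Dvd.dvd.mul_left (dvd_pow_self q ?_) _
    rintro rfl
    rw [pow_zero] at hb
    exact hQbar (Subgroup.eq_bot_of_card_eq _ hb)
  -- Frattini
  obtain ⟨S⟩ : Nonempty (Sylow q H) := inferInstance
  set Q : Subgroup G := (S : Subgroup H).map H.subtype with hQ
  have hfr : normalizer (Q : Set G) ⊔ H = ⊤ := Sylow.normalizer_sup_eq_top S
  have hQp : IsPGroup q Q := S.isPGroup'.map H.subtype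
  have hSbot : (S : Subgroup H) ≠ ⊥ := S.ne_bot_of_dvd_card hqH
  have hQbot : Q ≠ ⊥ := by
    intro h
    apply hSbot
    rwa [hQ, Subgroup.map_eq_bot_iff_of_injective _ H.subtype_injective] at h
  -- a element of order `r` in `N(Q)`
  have hrN : r ∣ Nat.card (normalizer (Q : Set G)) := by
    have h1 : Nat.card G ∣ Nat.card (normalizer (Q : Set G)) * Nat.card H := by
      have h2 := Cfsg.Agent.Lib.Core.card_sup_dvd (normalizer (Q : Set G)) H
      rwa [hfr, Subgroup.card_top] at h2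
    have h3 := hrG.trans h1
    rcases (Nat.Prime.dvd_mul hr).mp h3 with h4 | h4
    · exact h4
    · exfalso
      rw [hHcard, ha, hb] at h4
      rcases (Nat.Prime.dvd_mul hr).mp h4 with h5 | h5
      · exact hrp ((Nat.prime_dvd_prime_iff_eq hr hp).mp (hr.dvd_of_dvd_pow h5))
      · exact hrq ((Nat.prime_dvd_prime_iff_eq hr hq).mp (hr.dvd_of_dvd_pow h5))
  obtain ⟨⟨x, hxN⟩, hxo⟩ := exists_prime_orderOf_dvd_card' (G := normalizer (Q : Set G)) r hrN
  rw [Subgroup.orderOf_mk] at hxo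
  -- the centre `Z` of `Q` and the centre `V` of `P`
  set Z : Subgroup G := (center Q).map Q.subtype with hZ
  set V : Subgroup G := (center P).map P.subtype with hV
  have hZN : normalizer (Q : Set G) ≤ normalizer (Z : Set G) :=
    Cfsg.Agent.Lib.Hall.normalizer_le_normalizer_map_of_characteristic Q (center Q)
  have hZle : Z ≤ Q := by
    rintro _ ⟨z, _, rfl⟩
    exact z.2
  have hVle : V ≤ P := by
    rintro _ ⟨z, _, rfl⟩
    exact z.2
  have hZp : IsPGroup q Z := hQp.to_le hZle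
  have hVp : IsPGroup p V := hPp.to_le hVle
  have hcenter : ∀ (R : Subgroup G), IsMulCommutative ((center R).map R.subtype) := by
    intro R
    refine ⟨⟨?_⟩⟩
    rintro ⟨_, a, ha, rfl⟩ ⟨_, b, hb, rfl⟩
    apply Subtype.ext
    show (a : G) * b = b * a
    exact congrArg Subtype.val ((Subgroup.mem_center_iff.mp hb a))
  have hVab : IsMulCommutative V := hcenter P
  have hZab : IsMulCommutative Z := hcenter Q
  have hcenter_ne : ∀ {s : ℕ} (R : Subgroup G), IsPGroup s R → R ≠ ⊥ → s.Prime → (center R).map R.subtype ≠ ⊥ := by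
    intro s R hR hne hs
    haveI : Fact s.Prime := ⟨hs⟩
    haveI : Nontrivial R := (Subgroup.nontrivial_iff_ne_bot R).mpr hne
    haveI := hR.center_nontrivial
    intro h
    rw [Subgroup.map_eq_bot_iff_of_injective _ R.subtype_injective] at h
    exact (Subgroup.nontrivial_iff_ne_bot _).mp inferInstance h
  have hVne : V ≠ ⊥ := hcenter_ne P hPp hP hp
  have hZne : Z ≠ ⊥ := hcenter_ne Q hQp hQbot hq
  have hVn : V.Normal := Cfsg.Agent.Lib.PGroup.map_subtype_normal_of_characteristic P (center P)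
  have hVN : ∀ (A : Subgroup G), A ≤ normalizer (V : Set G) := by
    intro A
    rw [Subgroup.normalizer_eq_top_iff.mpr hVn]
    exact le_top
  obtain ⟨c, hc⟩ := IsPGroup.iff_card.mp hZp
  have hc0 : c ≠ 0 := by
    rintro rfl
    rw [pow_zero] at hc
    exact hZne (Subgroup.eq_bot_of_card_eq _ hc)
  have hqZ : q ∣ Nat.card Z := by
    rw [hc]
    exact dvd_pow_self q hc0
  have hZcop : (Nat.card Z).Coprime p := by
    rw [hc]
    exact Nat.Coprime.pow_left _ ((Nat.coprime_primes hq hp).mpr hqp)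
  have hZcyc : IsCyclic Z := Cfsg.Agent.Lib.Hall.isCyclic_of_fpf Z V hVne (hVN Z) (cp_fpf h hVp hZcop) (Or.inl hZab)
  obtain ⟨⟨y, hyZ⟩, hyo⟩ := exists_prime_orderOf_dvd_card' (G := Z) q hqZ
  rw [Subgroup.orderOf_mk] at hyo
  set Y : Subgroup G := zpowers y with hY
  have hYcard : Nat.card Y = q := by rw [hY, Nat.card_zpowers, hyo]
  have hYZ : Y ≤ Z := by rw [hY, Subgroup.zpowers_le]; exact hyZ
  have hxy : x * y * x⁻¹ ∈ Z := (Subgroup.mem_normalizer_iff.mp (hZN hxN) y).mp hyZ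
  have hxyo : orderOf (x * y * x⁻¹) = q := by
    rw [← hyo]
    have : x * y * x⁻¹ = MulAut.conj x y := rfl
    rw [this]
    exact MulEquiv.orderOf_eq _ _
  have hxyY : x * y * x⁻¹ ∈ Y := by
    have h1 : zpowers (x * y * x⁻¹) ≤ Y := by
      apply Cfsg.Agent.Lib.OddLocal.eq_of_card_eq_of_isCyclic hZcyc
      · rw [Subgroup.zpowers_le]; exact hxy
      · exact hYZ
      · rw [hYcard, Nat.card_zpowers, hxyo]
    exact h1 (mem_zpowers _)
  have hxNY : zpowers x ≤ normalizer (Y : Set G) := by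
    rw [Subgroup.zpowers_le]
    apply Cfsg.Agent.Lib.Hall.mem_normalizer_of_conj_le
    rintro _ ⟨k, rfl⟩
    show x * y ^ k * x⁻¹ ∈ Y
    have h1 : x * y ^ k * x⁻¹ = (x * y * x⁻¹) ^ k := by
      rw [← conj_zpow]
    rw [h1]
    exact zpow_mem hxyY k
  have hcoprqr : q.Coprime r := (Nat.coprime_primes hq hr).mpr (Ne.symm hrq)
  have hd : Y ⊓ zpowers x = ⊥ := by
    apply disjoint_iff.mp
    apply Subgroup.disjoint_of_coprime_natCard
    rw [hYcard, Nat.card_zpowers, hxo]
    exact hcoprqr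
  set T : Subgroup G := Y ⊔ zpowers x with hT
  have hTcard : Nat.card T = q * r := by
    rw [hT, Cfsg.Agent.Lib.Hall.card_sup_of_normalizes Y (zpowers x) hxNY hd, hYcard, Nat.card_zpowers, hxo]
  have hTcop : (Nat.card T).Coprime p := by
    rw [hTcard]
    exact Nat.Coprime.mul_left ((Nat.coprime_primes hq hp).mpr hqp) ((Nat.coprime_primes hr hp).mpr hrp)
  have hTcyc : IsCyclic T := Cfsg.Agent.Lib.Hall.isCyclic_of_fpf T V hVne (hVN T) (cp_fpf h hVp hTcop)
    (Or.inr ⟨q, r, hq, hr, hTcard⟩)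
  obtain ⟨g, hg⟩ := IsCyclic.exists_ofOrder_eq_natCard (α := T)
  rw [hTcard] at hg
  have hgo : orderOf (g : G) = q * r := by rw [Subgroup.orderOf_coe, hg]
  rcases h (g : G) with h1 | h1
  · rw [hgo] at h1
    exact not_isPrimePow_mul hcoprqr hq.ne_one hr.ne_one h1
  · rw [h1, orderOf_one] at hgo
    exact hq.ne_one (Nat.eq_one_of_mul_eq_one_right hgo.symm)

/-- **S1475** -/
theorem primeFactors_card_le_two (h : ∀ g : G, IsPrimePow (orderOf g) ∨ g = 1) (hs : Group.IsSolvable G) :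
    (Nat.card G).primeFactors.card ≤ 2 := by
  by_cases hn : Nontrivial G
  · obtain ⟨p, q, hpq⟩ := cp_primes_aux h hs
    have h1 : (Nat.card G).primeFactors ⊆ {p, q} := by
      intro r hr
      have h2 := Nat.mem_primeFactors.mp hr
      rcases hpq r h2.1 h2.2.1 with rfl | rfl <;> simp
    exact (Finset.card_le_card h1).trans (Finset.card_le_two)
  · rw [not_nontrivial_iff_subsingleton] at hn
    rw [Nat.card_unique]
    simp

end Cfsg.Agent.Lib.OddLocal
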