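import Mathlib
import Cfsg.Agent.Lib.OddLocal.Basic
import Cfsg.Agent.Lib.OddLocal.Coprime
import Cfsg.Agent.Lib.OddLocal.Omega
import Cfsg.Agent.Lib.Hall.Norm
import Cfsg.Agent.Lib.Core.Frattini
import Cfsg.Agent.Lib.Transfer.Frat
import Cfsg.Agent.Lib.CharExtra.PReg
import Cfsg.Agent.Lib.FStar.Layer

/-!
# Commutators of normal Hall subgroups with a complement: S1459
-/

set_option autoImplicit false

namespace Cfsg.Agent.Lib.OddLocal

open Cfsg Subgroup
open scoped commutatorElement Pointwise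

variable {G : Type*} [Group G] [Finite G]

omit [Finite G] in
theorem comm_calc {Q : Type*} [Group Q] {a b c d : Q} (hab : Commute a b) (hac : Commute a c) (had : Commute a d)
    (hbc : Commute b c) (hbd : Commute b d) : ⁅a * c, b * d⁆ = ⁅c, d⁆ := by
  have e1 : c * b = b * c := hbc.eq.symm
  have e2 : a⁻¹ * d⁻¹ = d⁻¹ * a⁻¹ := (had.inv_inv).eq
  have e3 : Commute (a * b) ⁅c, d⁆ := by
    have h1 : Commute (a * b) c := hac.mul_left hbc
    have h2 : Commute (a * b) d := had.mul_left hbd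
    simp only [commutatorElement_def]
    exact ((h1.mul_right h2).mul_right h1.inv_right).mul_right h2.inv_right
  have e4 : a⁻¹ * b⁻¹ = (a * b)⁻¹ := by
    rw [mul_inv_rev]
    exact (hab.inv_inv).eq
  calc ⁅a * c, b * d⁆ = a * (c * b) * d * c⁻¹ * (a⁻¹ * d⁻¹) * b⁻¹ := by
        simp only [commutatorElement_def]; group
    _ = (a * b) * ⁅c, d⁆ * (a⁻¹ * b⁻¹) := by
        rw [e1, e2]; simp only [commutatorElement_def]; group
    _ = ⁅c, d⁆ := by
        rw [e3.eq, e4]; group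

section partA

variable {H K : Subgroup G} [hH : H.Normal] (hHK : H ⊔ K = ⊤) (hd : H ⊓ K = ⊥)
include hHK

omit [Finite G] in
omit [Finite G] in
theorem normal_commutator_of_sup_top : (⁅H, K⁆ : Subgroup G).Normal := by
  rw [← Subgroup.normalizer_eq_top_iff, eq_top_iff, ← hHK]
  exact sup_le (Cfsg.Agent.Lib.Hall.le_normalizer_commutator_left K H)
    (Cfsg.Agent.Lib.Hall.le_normalizer_commutator_right (by
      rw [Subgroup.normalizer_eq_top_iff.mpr hH]; exact le_top))

omit [Finite G] in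
/-- `G' ≤ H' [H, K] K'`. -/
theorem commutator_le_of_sup_top :
    commutator G ≤ (⁅H, H⁆ ⊔ ⁅H, K⁆) ⊔ ⁅K, K⁆ := by
  set N : Subgroup G := ⁅H, K⁆ with hN
  have hH'n : (⁅H, H⁆ : Subgroup G).Normal := inferInstance
  have hNn : N.Normal := normal_commutator_of_sup_top hHK
  set W : Subgroup G := ⁅H, H⁆ ⊔ N with hW
  have hWn : W.Normal := Subgroup.sup_normal _ _
  rw [commutator_def, Subgroup.commutator_le]
  intro g₁ _ g₂ _
  have hg : ∀ g : G, ∃ h ∈ H, ∃ k ∈ K, h * k = g := by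
    intro g
    have : g ∈ H ⊔ K := by rw [hHK]; trivial
    exact Subgroup.mem_sup_of_normal_left.mp this
  obtain ⟨h₁, hh₁, k₁, hk₁, rfl⟩ := hg g₁
  obtain ⟨h₂, hh₂, k₂, hk₂, rfl⟩ := hg g₂
  set π := QuotientGroup.mk' W with hπ
  have hcen1 : ∀ h ∈ H, ∀ h' ∈ H, Commute (π h) (π h') := by
    intro h hh h' hh'
    have h1 : ⁅h, h'⁆ ∈ W := le_sup_left (a := (⁅H, H⁆ : Subgroup G)) (Subgroup.commutator_mem_commutator hh hh')
    have h2 : π ⁅h, h'⁆ = 1 := (QuotientGroup.eq_one_iff _).mpr h1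
    rw [map_commutatorElement, commutatorElement_eq_one_iff_commute] at h2
    exact h2
  have hcen2 : ∀ h ∈ H, ∀ k ∈ K, Commute (π h) (π k) := by
    intro h hh k hk
    have h1 : ⁅h, k⁆ ∈ W := le_sup_right (a := (⁅H, H⁆ : Subgroup G)) (Subgroup.commutator_mem_commutator hh hk)
    have h2 : π ⁅h, k⁆ = 1 := (QuotientGroup.eq_one_iff _).mpr h1
    rw [map_commutatorElement, commutatorElement_eq_one_iff_commute] at h2
    exact h2
  have hq : π ⁅h₁ * k₁, h₂ * k₂⁆ = π ⁅k₁, k₂⁆ := by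
    rw [map_commutatorElement, map_commutatorElement, map_mul, map_mul]
    exact comm_calc (hcen1 h₁ hh₁ h₂ hh₂) (hcen2 h₁ hh₁ k₁ hk₁) (hcen2 h₁ hh₁ k₂ hk₂)
      (hcen2 h₂ hh₂ k₁ hk₁) (hcen2 h₂ hh₂ k₂ hk₂)
  have h3 : ⁅k₁, k₂⁆⁻¹ * ⁅h₁ * k₁, h₂ * k₂⁆ ∈ W := by
    exact (QuotientGroup.eq (s := W)).mp hq.symm
  have h4 : ⁅h₁ * k₁, h₂ * k₂⁆ = ⁅k₁, k₂⁆ * (⁅k₁, k₂⁆⁻¹ * ⁅h₁ * k₁, h₂ * k₂⁆) := by group
  rw [h4, sup_comm]
  exact Subgroup.mul_mem_sup (Subgroup.commutator_mem_commutator hk₁ hk₂) h3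

/-- `H ≤ G'` implies `H ≤ H' [H, K]`. -/
theorem le_commutator_sup_of_le (hHG : H ≤ commutator G) (hd : H ⊓ K = ⊥) :
    H ≤ ⁅H, H⁆ ⊔ ⁅H, K⁆ := by
  have hN : (⁅H, H⁆ ⊔ ⁅H, K⁆ : Subgroup G) ≤ H :=
    sup_le (commutator_self_le H) (Cfsg.Agent.Lib.Hall.commutator_le_of_normalizes (by
        rw [Subgroup.normalizer_eq_top_iff.mpr hH]; exact le_top))
  have hNn : (⁅H, K⁆ : Subgroup G).Normal := normal_commutator_of_sup_top hHK
  have hWn : (⁅H, H⁆ ⊔ ⁅H, K⁆ : Subgroup G).Normal := Subgroup.sup_normal _ _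
  intro h hh
  have h1 := commutator_le_of_sup_top hHK (hHG hh)
  obtain ⟨w, hw, c, hc, hwc⟩ := Subgroup.mem_sup_of_normal_left.mp h1
  have hcH : c ∈ H := by
    have : c = w⁻¹ * h := by rw [← hwc]; group
    rw [this]
    exact H.mul_mem (H.inv_mem (hN hw)) hh
  have hc1 : c ∈ H ⊓ K := ⟨hcH, commutator_self_le K hc⟩
  rw [hd, Subgroup.mem_bot] at hc1
  rw [← hwc, hc1, mul_one]
  exact hw

/-- **S1459 (a), first part**. -/
theorem eq_commutator_of_le (hsol : Group.IsSolvable H) (hHG : H ≤ commutator G) (hd : H ⊓ K = ⊥) :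
    H = ⁅H, K⁆ := by
  have hNn : (⁅H, K⁆ : Subgroup G).Normal := normal_commutator_of_sup_top hHK
  have hle := le_commutator_sup_of_le hHK hHG hd
  apply le_antisymm _ (Cfsg.Agent.Lib.Hall.commutator_le_of_normalizes (by
        rw [Subgroup.normalizer_eq_top_iff.mpr hH]; exact le_top))
  set N : Subgroup G := ⁅H, K⁆ with hN
  set π := QuotientGroup.mk' N with hπ
  by_contra hcon
  have hne : H.map π ≠ ⊥ := by
    intro h
    apply hcon
    rw [Subgroup.map_eq_bot_iff, QuotientGroup.ker_mk'] at h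
    exact h
  have hsol' : Group.IsSolvable (H.map π) :=
    Group.isSolvable_of_surjective (f := (π.subgroupMap H)) (π.subgroupMap_surjective H)
  have hlt := Cfsg.Agent.Lib.FStar.commutator_lt_of_solvable hsol' hne
  apply hlt.not_ge
  rw [← Subgroup.map_commutator]
  intro x hx
  obtain ⟨h, hh, rfl⟩ := hx
  have h1 := hle hh
  obtain ⟨w, hw, c, hc, hwc⟩ := Subgroup.mem_sup_of_normal_right.mp h1
  refine ⟨w, hw, ?_⟩
  have : π c = 1 := (QuotientGroup.eq_one_iff c).mpr hc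
  rw [← hwc, map_mul, this, mul_one]

/-- **S1459 (a), second part**. -/
theorem inf_centralizer_le_commutator (hsol : Group.IsSolvable H) (hHG : H ≤ commutator G) (hd : H ⊓ K = ⊥)
    (hcop : (Nat.card K).Coprime (Nat.card H)) :
    H ⊓ centralizer (K : Set G) ≤ ⁅H, H⁆ := by
  have hHK' := eq_commutator_of_le hHK hsol hHG hd
  set W : Subgroup G := ⁅H, H⁆ with hW
  set π := QuotientGroup.mk' W with hπ
  set V : Subgroup (G ⧸ W) := H.map π with hV
  set A : Subgroup (G ⧸ W) := K.map π with hA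
  have hVab : IsMulCommutative V := by
    refine ⟨⟨?_⟩⟩
    rintro ⟨_, a, ha, rfl⟩ ⟨_, b, hb, rfl⟩
    apply Subtype.ext
    show π a * π b = π b * π a
    have h1 : ⁅a, b⁆ ∈ W := Subgroup.commutator_mem_commutator ha hb
    have h2 : π ⁅a, b⁆ = 1 := (QuotientGroup.eq_one_iff _).mpr h1
    rw [map_commutatorElement, commutatorElement_eq_one_iff_commute] at h2
    exact h2
  have hVn : V.Normal := Subgroup.Normal.map hH π (QuotientGroup.mk'_surjective W)
  have hAV : A ≤ normalizer (V : Set (G ⧸ W)) := by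
    rw [Subgroup.normalizer_eq_top_iff.mpr hVn]; exact le_top
  have hcopVA : (Nat.card A).Coprime (Nat.card V) :=
    Nat.Coprime.coprime_dvd_left (Cfsg.Agent.Lib.OddLocal.card_map_dvd_card π K)
      (Nat.Coprime.coprime_dvd_right (Cfsg.Agent.Lib.OddLocal.card_map_dvd_card π H) hcop)
  obtain ⟨h1, h2⟩ := Cfsg.Agent.Lib.Hall.abelian_split A V hAV hcopVA
  have h3 : (⁅V, A⁆ : Subgroup (G ⧸ W)) = V := by
    rw [hV, hA, ← Subgroup.map_commutator, ← hHK']
  intro x hx
  obtain ⟨hxH, hxC⟩ := Subgroup.mem_inf.mp hx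
  have h4 : π x ∈ (V ⊓ centralizer (A : Set (G ⧸ W))) ⊓ ⁅V, A⁆ := by
    refine Subgroup.mem_inf.mpr ⟨Subgroup.mem_inf.mpr ⟨⟨x, hxH, rfl⟩, ?_⟩, by rw [h3]; exact ⟨x, hxH, rfl⟩⟩
    rw [Subgroup.mem_centralizer_iff]
    rintro _ ⟨k, hk, rfl⟩
    have := Subgroup.mem_centralizer_iff.mp hxC k hk
    show π k * π x = π x * π k
    rw [← map_mul, ← map_mul, this]
  rw [h1, Subgroup.mem_bot] at h4
  exact (QuotientGroup.eq_one_iff x).mp h4

end partA

section partB

/-- If `G'` is nilpotent of prime index `r`, then `G' ≤ O_{r'}(G)`. -/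
theorem commutator_le_pPrimeCore_of_index_prime (hn : Group.IsNilpotent (commutator G))
    {r : ℕ} [hr : Fact r.Prime] (hi : (commutator G).index = r) :
    commutator G ≤ pPrimeCore r G := by
  set C : Subgroup G := commutator G with hC
  set O := pPrimeCore r G with hO
  have hOn : O.Normal := inferInstance
  set T : Subgroup G := (pPrimeCore r C).map C.subtype with hT
  have hTn : T.Normal := Cfsg.Agent.Lib.PGroup.map_subtype_normal_of_characteristic C (pPrimeCore r C)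
  have hTO : T ≤ O := by
    refine Cfsg.Agent.Lib.Core.le_pPrimeCore hTn ?_
    rw [hT, Cfsg.Agent.Lib.OddLocal.card_map_subtype]
    exact Cfsg.Agent.Lib.Core.pPrimeCore_coprime r C
  have hrp : r.Prime := hr.out
  have hP : IsPGroup r (G ⧸ O) := by
    intro x
    obtain ⟨g, rfl⟩ := QuotientGroup.mk'_surjective O x
    have hy : g ^ r ∈ C := by
      have := Subgroup.pow_index_mem C g
      rwa [hi] at this
    set y := g ^ r with hydef
    have hypos : orderOf y ≠ 0 := (orderOf_pos y).ne'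
    obtain ⟨m, c, hc, ho⟩ := Nat.exists_eq_pow_mul_and_not_dvd hypos r hrp.ne_one
    have h1 : (⟨y, hy⟩ : C) ^ r ^ m ∈ pPrimeCore r C := by
      rw [Cfsg.Agent.Lib.CharExtra.mem_pPrimeCore_iff_of_nilpotent]
      intro hd
      apply hc
      refine hd.trans (orderOf_dvd_of_pow_eq_one ?_)
      apply Subtype.ext
      show (y ^ r ^ m) ^ c = 1
      rw [← pow_mul, ← ho, pow_orderOf_eq_one]
    have h2 : y ^ r ^ m ∈ T := ⟨_, h1, rfl⟩
    have h3 : y ^ r ^ m ∈ O := hTO h2
    refine ⟨m + 1, ?_⟩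
    have h4 : g ^ r ^ (m + 1) = y ^ r ^ m := by
      rw [hydef, ← pow_mul, pow_succ', ]
    show (QuotientGroup.mk' O) g ^ _ = 1
    rw [← map_pow, h4]
    exact (QuotientGroup.eq_one_iff _).mpr h3
  have hex : ∃ g : G, g ∉ C := by
    by_contra hcon
    push Not at hcon
    have : C = ⊤ := eq_top_iff.mpr fun x _ => hcon x
    rw [this, Subgroup.index_top] at hi
    exact hrp.one_lt.ne hi
  obtain ⟨g, hg⟩ := hex
  have hco : IsCoatom C := Cfsg.Agent.Lib.PGroup.isCoatom_of_index_prime (by rw [hi]; exact hrp)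
  have htop : zpowers g ⊔ C = ⊤ := by
    apply hco.2
    refine lt_of_le_of_ne le_sup_right ?_
    intro h
    exact hg (h ▸ (le_sup_left (b := C) (mem_zpowers g)))
  set π := QuotientGroup.mk' O with hπ
  have hπs : Function.Surjective π := QuotientGroup.mk'_surjective O
  have hCmap : C.map π = commutator (G ⧸ O) := by
    rw [hC, commutator_def, commutator_def, Subgroup.map_commutator, Subgroup.map_top_of_surjective _ hπs]
  have htop2 : zpowers (π g) ⊔ commutator (G ⧸ O) = ⊤ := by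
    rw [← hCmap, ← MonoidHom.map_zpowers, ← Subgroup.map_sup, htop, Subgroup.map_top_of_surjective _ hπs]
  have hz : zpowers (π g) = ⊤ :=
    Cfsg.Agent.Lib.Core.eq_top_of_sup_eq_top_of_le_frattini
      (Cfsg.Agent.Lib.Transfer.commutator_le_frattini hP) htop2
  have hbot : commutator (G ⧸ O) = ⊥ := by
    rw [eq_bot_iff, commutator_def, Subgroup.commutator_le]
    intro a _ b _
    have ha : a ∈ zpowers (π g) := by rw [hz]; trivial
    have hb : b ∈ zpowers (π g) := by rw [hz]; trivial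
    obtain ⟨m, rfl⟩ := ha
    obtain ⟨k, rfl⟩ := hb
    rw [Subgroup.mem_bot, commutatorElement_eq_one_iff_commute]
    exact (Commute.refl _).zpow_zpow m k
  intro x hx
  have h5 : π x ∈ C.map π := ⟨x, hx, rfl⟩
  rw [hCmap, hbot, Subgroup.mem_bot] at h5
  exact (QuotientGroup.eq_one_iff x).mp h5

/-- **S1459 (b), first part.** -/
theorem coprime_of_index_prime (hn : Group.IsNilpotent (commutator G)) (hp : (commutator G).index.Prime) :
    (Nat.card (commutator G)).Coprime (commutator G).index := by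
  haveI : Fact (commutator G).index.Prime := ⟨hp⟩
  have h1 := commutator_le_pPrimeCore_of_index_prime hn (r := (commutator G).index) rfl
  exact Nat.Coprime.coprime_dvd_left (Subgroup.card_dvd_of_le h1) (Cfsg.Agent.Lib.Core.pPrimeCore_coprime _ G)

end partB

end Cfsg.Agent.Lib.OddLocal
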