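import Mathlib

/-! Norm-one arithmetic progressions in the field of `p ^ q` elements (Bender--Glauberman, Appendix C). -/

set_option autoImplicit false

namespace Cfsg.Agent.Lib.OddLocal.NormCount

open Polynomial

variable {p q : ℕ} [Fact p.Prime] [Fact q.Prime]

local notation "K" => GaloisField p q

theorem finrank_K : Module.finrank (ZMod p) K = q :=
  GaloisField.finrank p (Fact.out : q.Prime).ne_zero

/-- The characteristic polynomial of `a`. -/
theorem exists_norm_poly (a : K) : ∃ P : (ZMod p)[X], P.Monic ∧ P.natDegree = q ∧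
    (∀ c : ZMod p, P.eval c = Algebra.norm (ZMod p) (algebraMap (ZMod p) K c - a)) ∧ aeval a P = 0 := by
  classical
  let b := Module.finBasis (ZMod p) K
  let M := Algebra.leftMulMatrix b a
  refine ⟨M.charpoly, Matrix.charpoly_monic M, ?_, ?_, ?_⟩
  · rw [Matrix.charpoly_natDegree_eq_dim, Fintype.card_fin]; exact finrank_K
  · intro c
    rw [Matrix.eval_charpoly, Algebra.norm_eq_matrix_det b, map_sub, AlgHom.commutes]
    rfl
  · apply Algebra.leftMulMatrix_injective b
    rw [map_zero, ← aeval_algHom_apply]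
    exact Matrix.aeval_self_charpoly M

/-- From the coprimality hypothesis: `c ^ q = 1` forces `c = 1` in the prime field. -/
theorem eq_one_of_pow_q (hA : Nat.Coprime ((p ^ q - 1) / (p - 1)) (p - 1)) {c : ZMod p} (hc : c ^ q = 1) : c = 1 := by
  classical
  have hpp : p.Prime := Fact.out
  have hqq : q.Prime := Fact.out
  have hc0 : c ≠ 0 := by
    rintro rfl
    rw [zero_pow hqq.ne_zero] at hc
    exact zero_ne_one hc
  by_contra hne
  have hord : orderOf c = q := by
    rcases (Nat.dvd_prime hqq).mp (orderOf_dvd_of_pow_eq_one hc) with h | h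
    · exact absurd (orderOf_eq_one_iff.mp h) hne
    · exact h
  have hqd : q ∣ p - 1 := by
    have h1 := ZMod.orderOf_dvd_card_sub_one hc0
    rwa [hord] at h1
  -- `A ≡ q` modulo `p - 1`, so `q ∣ A`.
  have hgeom : (p ^ q - 1) / (p - 1) = ∑ i ∈ Finset.range q, p ^ i := by
    have hp1 : 1 ≤ p := hpp.one_le
    have h := Nat.geomSum_eq hpp.two_le q
    exact h.symm
  have hA' : q ∣ (p ^ q - 1) / (p - 1) := by
    rw [hgeom]
    have hmod : ∀ i, p ^ i ≡ 1 [MOD q] := by
      intro i
      have h1 : p ≡ 1 [MOD q] := by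
        have hp1 : 1 ≤ p := hpp.one_le
        exact (Nat.modEq_iff_dvd' hp1).mpr hqd |>.symm
      simpa using h1.pow i
    have h2 : (∑ i ∈ Finset.range q, p ^ i) ≡ ∑ i ∈ Finset.range q, 1 [MOD q] := by
      unfold Nat.ModEq
      rw [Finset.sum_nat_mod, Finset.sum_nat_mod (n := q) (f := fun _ => 1)]
      congr 1
      apply Finset.sum_congr rfl
      intro i _
      exact hmod i
    have h3 : (∑ i ∈ Finset.range q, 1) = q := by simp
    rw [h3] at h2
    exact (Nat.modEq_zero_iff_dvd).mp (h2.trans (by simp [Nat.ModEq]))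
  have := Nat.dvd_gcd hA' hqd
  rw [hA.gcd_eq_one] at this
  exact hqq.one_lt.ne' (Nat.dvd_one.mp this)

theorem norm_algebraMap' (c : ZMod p) : Algebra.norm (ZMod p) (algebraMap (ZMod p) K c) = c ^ q := by
  rw [Algebra.norm_algebraMap, finrank_K]

/-- **Appendix C, S1470 form.** -/
theorem le_of_inv_closed (hA : Nat.Coprime ((p ^ q - 1) / (p - 1)) (p - 1))
    (hinv : ∀ a : K, Algebra.norm (ZMod p) a = 1 → Algebra.norm (ZMod p) (2 - a) = 1 →
      Algebra.norm (ZMod p) a⁻¹ = 1 ∧ Algebra.norm (ZMod p) (2 - a⁻¹) = 1)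
    {a : K} (ha1 : Algebra.norm (ZMod p) a = 1) (ha2 : Algebra.norm (ZMod p) (2 - a) = 1) (hne : a ≠ 1) :
    p ≤ q := by
  classical
  have hpp : p.Prime := Fact.out
  have hnotin : ∀ c : ZMod p, a ≠ algebraMap (ZMod p) K c := by
    rintro c rfl
    rw [norm_algebraMap'] at ha1
    apply hne
    rw [eq_one_of_pow_q hA ha1, map_one]
  set u : K := (a - 1)⁻¹ with hu
  have ha1' : a - 1 ≠ 0 := sub_ne_zero.mpr hne
  have hau : a = 1 + u⁻¹ := by rw [hu, inv_inv]; ring
  have hune : ∀ c : ZMod p, u + algebraMap (ZMod p) K c ≠ 0 := by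
    intro c h
    have h1 : u = algebraMap (ZMod p) K (-c) := by
      rw [map_neg]; exact eq_neg_of_add_eq_zero_left h
    have hc : c ≠ 0 := by
      rintro rfl
      rw [map_zero, add_zero] at h
      exact inv_ne_zero ha1' h
    apply hnotin (1 + (-c)⁻¹)
    rw [hau, h1, map_add, map_one, map_inv₀]
  -- Step: all the `1 + 1 / (u + n)` lie in `E`.
  have hstep : ∀ n : ℕ, Algebra.norm (ZMod p) (1 + (u + algebraMap (ZMod p) K (n : ZMod p))⁻¹) = 1 ∧
      Algebra.norm (ZMod p) (2 - (1 + (u + algebraMap (ZMod p) K (n : ZMod p))⁻¹)) = 1 := by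
    intro n
    induction n with
    | zero =>
      simp only [Nat.cast_zero, map_zero, add_zero]
      rw [← hau]
      exact ⟨ha1, ha2⟩
    | succ n ih =>
      set v := u + algebraMap (ZMod p) K (n : ZMod p) with hv
      have hv0 : v ≠ 0 := hune _
      have hv1 : v + 1 ≠ 0 := by
        have := hune ((n : ZMod p) + 1)
        rwa [map_add, map_one, ← add_assoc] at this
      have h := hinv _ ih.1 ih.2
      have hkey : 1 + (v + 1)⁻¹ = 2 - (1 + v⁻¹)⁻¹ := by
        field_simp
        ring
      have hcast : u + algebraMap (ZMod p) K (((n + 1 : ℕ)) : ZMod p) = v + 1 := by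
        rw [hv]; push_cast; ring
      rw [hcast, hkey]
      refine ⟨h.2, ?_⟩
      have h3 : (2 : K) - (2 - (1 + v⁻¹)⁻¹) = (1 + v⁻¹)⁻¹ := by ring
      rw [h3]
      exact h.1
  -- Hence `N(u + n)` is constant.
  have hconst : ∀ n : ℕ, Algebra.norm (ZMod p) (u + algebraMap (ZMod p) K (n : ZMod p)) =
      Algebra.norm (ZMod p) u := by
    intro n
    induction n with
    | zero => simp
    | succ n ih =>
      rw [← ih]
      set v := u + algebraMap (ZMod p) K (n : ZMod p) with hv
      have hv0 : v ≠ 0 := hune _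
      have hcast : u + algebraMap (ZMod p) K (((n + 1 : ℕ)) : ZMod p) = v + 1 := by
        rw [hv]; push_cast; ring
      rw [hcast]
      have h1 := (hstep n).1
      rw [← hv] at h1
      have h2 : (1 + v⁻¹) * v = v + 1 := by field_simp
      rw [← h2, map_mul, h1, one_mul]
  obtain ⟨P, hPm, hPd, hPe, -⟩ := exists_norm_poly (p := p) (q := q) (-u)
  have hPc : ∀ c : ZMod p, P.eval c = Algebra.norm (ZMod p) u := by
    intro c
    rw [hPe, sub_neg_eq_add, add_comm]
    have := hconst c.val
    rwa [ZMod.natCast_zmod_val] at this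
  have hq1 : 0 < q := (Fact.out : q.Prime).pos
  let R : (ZMod p)[X] := P - C (Algebra.norm (ZMod p) u)
  have hRm : R.natDegree = q := by
    change (P - C _).natDegree = q
    rw [natDegree_sub_C, hPd]
  have hR0 : R ≠ 0 := by
    intro h
    rw [h, natDegree_zero] at hRm
    omega
  have hroots : (Finset.univ : Finset (ZMod p)).val ⊆ R.roots := by
    intro c _
    rw [mem_roots hR0, IsRoot, eval_sub, eval_C, hPc, sub_self]
  have hcard := card_le_degree_of_subset_roots hroots
  rw [hRm] at hcard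
  simpa [ZMod.card] using hcard

end Cfsg.Agent.Lib.OddLocal.NormCount
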