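import Cfsg.Agent.Lib.OddLocal.NormCount
import Mathlib

/-! Existence of a nontrivial norm-one arithmetic progression: `S1471`. -/

set_option autoImplicit false

namespace Cfsg.Agent.Lib.OddLocal.NormCount

open Polynomial

variable {p q : ℕ} [Fact p.Prime] [Fact q.Prime]

local notation "K" => GaloisField p q

theorem two_ne_zero_K (hp : p ≠ 2) : (2 : K) ≠ 0 := by
  intro h
  have h2 : (2 : ZMod p) = 0 := by
    apply (algebraMap (ZMod p) K).injective
    rw [map_ofNat, map_zero]; exact h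
  have h3 : ((2 : ℕ) : ZMod p) = 0 := by exact_mod_cast h2
  rw [ZMod.natCast_eq_zero_iff] at h3
  have hpp : p.Prime := Fact.out
  exact hp ((Nat.prime_dvd_prime_iff_eq hpp Nat.prime_two).mp h3)

/-! ### Degree three: pigeonhole. -/

theorem exists_of_three (hp : p ≠ 2) :
    ∃ a : GaloisField p 3, Algebra.norm (ZMod p) a = 1 ∧ Algebra.norm (ZMod p) (2 - a) = 1 ∧ a ≠ 1 := by
  classical
  have hpp : p.Prime := Fact.out
  have h20 : (2 : ZMod p) ≠ 0 := by
    intro h2
    have h3 : ((2 : ℕ) : ZMod p) = 0 := by exact_mod_cast h2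
    rw [ZMod.natCast_eq_zero_iff] at h3
    exact hp ((Nat.prime_dvd_prime_iff_eq hpp Nat.prime_two).mp h3)
  -- the value missed by the rational map
  let R : ZMod p → ZMod p := fun x => (x ^ 3 - 3 * x - 1) / (x ^ 2 - 2 * x)
  let D : Finset (ZMod p) := (Finset.univ.erase 0).erase 2
  have hDcard : D.card + 2 = p := by
    have h1 : D.card = (Finset.univ.erase (0 : ZMod p)).card - 1 :=
      Finset.card_erase_of_mem (by simp [h20])
    have h2 : (Finset.univ.erase (0 : ZMod p)).card = p - 1 := by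
      rw [Finset.card_erase_of_mem (Finset.mem_univ _), Finset.card_univ, ZMod.card]
    have := hpp.two_le
    omega
  have hlt : (D.image R).card < (Finset.univ : Finset (ZMod p)).card := by
    rw [Finset.card_univ, ZMod.card]
    have := Finset.card_image_le (s := D) (f := R)
    omega
  obtain ⟨t, -, ht⟩ := Finset.exists_mem_notMem_of_card_lt_card hlt
  -- the cubic
  let g : (ZMod p)[X] := X ^ 3 + C (-t) * X ^ 2 + C (2 * t - 3) * X + C (-1)
  have hgd : g.natDegree = 3 := by
    change (X ^ 3 + C (-t) * X ^ 2 + C (2 * t - 3) * X + C (-1) : (ZMod p)[X]).natDegree = 3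
    compute_degree!
  have hgm : g.Monic := by
    change (X ^ 3 + C (-t) * X ^ 2 + C (2 * t - 3) * X + C (-1) : (ZMod p)[X]).Monic
    monicity!
  have hev : ∀ x : ZMod p, g.eval x = x ^ 3 - t * x ^ 2 + (2 * t - 3) * x - 1 := by
    intro x
    change (X ^ 3 + C (-t) * X ^ 2 + C (2 * t - 3) * X + C (-1) : (ZMod p)[X]).eval x = _
    simp only [eval_add, eval_mul, eval_pow, eval_X, eval_C]
    ring
  have hnoroot : ∀ x : ZMod p, g.eval x ≠ 0 := by
    intro x hx
    rw [hev] at hx
    by_cases hx0 : x = 0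
    · subst hx0
      have : (-1 : ZMod p) = 0 := by simpa using hx
      exact one_ne_zero (neg_eq_zero.mp this)
    by_cases hx2 : x = 2
    · subst hx2
      have : (1 : ZMod p) = 0 := by
        have h3 : (2 : ZMod p) ^ 3 - t * 2 ^ 2 + (2 * t - 3) * 2 - 1 = 1 := by ring
        rw [h3] at hx
        exact hx
      exact one_ne_zero this
    apply ht
    rw [Finset.mem_image]
    refine ⟨x, by simp [D, hx0, hx2], ?_⟩
    have hden : x ^ 2 - 2 * x ≠ 0 := by
      have : x ^ 2 - 2 * x = x * (x - 2) := by ring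
      rw [this]
      exact mul_ne_zero hx0 (sub_ne_zero.mpr hx2)
    change (x ^ 3 - 3 * x - 1) / (x ^ 2 - 2 * x) = t
    rw [div_eq_iff hden]
    linear_combination hx
  have hgirr : Irreducible g := by
    rw [hgm.irreducible_iff_roots_eq_zero_of_degree_le_three (by omega) (by omega)]
    rw [Multiset.eq_zero_iff_forall_notMem]
    intro x hx
    rw [mem_roots hgm.ne_zero, IsRoot] at hx
    exact hnoroot x hx
  -- a root in `K`
  haveI : Fact (Irreducible g) := ⟨hgirr⟩
  let L := AdjoinRoot g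
  haveI : Module.Finite (ZMod p) L := (AdjoinRoot.powerBasis hgm.ne_zero).finite
  have hcardL : Nat.card L = Nat.card (GaloisField p 3) := by
    have h1 : Module.finrank (ZMod p) L = 3 := by
      rw [(AdjoinRoot.powerBasis hgm.ne_zero).finrank, AdjoinRoot.powerBasis_dim, hgd]
    have h2 : Nat.card L = Nat.card (ZMod p) ^ Module.finrank (ZMod p) L := Module.natCard_eq_pow_finrank
    rw [h2, h1, GaloisField.card p 3 (by norm_num)]
    simp
  haveI : Finite L := Module.finite_of_finite (ZMod p)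
  letI : Fintype L := Fintype.ofFinite L
  letI : Fintype (GaloisField p 3) := Fintype.ofFinite _
  let e : L ≃ₐ[ZMod p] GaloisField p 3 := FiniteField.algEquivOfCardEq p (by
    rw [← Nat.card_eq_fintype_card, ← Nat.card_eq_fintype_card]; exact hcardL)
  let a : GaloisField p 3 := e (AdjoinRoot.root g)
  have hag : aeval a g = 0 := by
    change aeval (e.toAlgHom (AdjoinRoot.root g)) g = 0
    rw [aeval_algHom_apply, AdjoinRoot.aeval_eq, AdjoinRoot.mk_self, map_zero]
  obtain ⟨P, hPm, hPd, hPe, hPa⟩ := exists_norm_poly (p := p) (q := 3) a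
  have hmin : g = minpoly (ZMod p) a := minpoly.eq_of_irreducible_of_monic hgirr hag hgm
  have hdvd : g ∣ P := by rw [hmin]; exact minpoly.dvd _ _ hPa
  have hPg : P = g :=
    eq_of_monic_of_dvd_of_natDegree_le hgm hPm hdvd (by rw [hPd, hgd])
  have h0 : Algebra.norm (ZMod p) (algebraMap (ZMod p) (GaloisField p 3) 0 - a) = -1 := by
    rw [← hPe, hPg, hev]; ring
  have h2 : Algebra.norm (ZMod p) (algebraMap (ZMod p) (GaloisField p 3) 2 - a) = 1 := by
    rw [← hPe, hPg, hev]; ring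
  refine ⟨a, ?_, ?_, ?_⟩
  · have h1 : algebraMap (ZMod p) (GaloisField p 3) 0 - a = algebraMap (ZMod p) (GaloisField p 3) (-1) * a := by
      rw [map_zero, map_neg, map_one]; ring
    rw [h1, map_mul, norm_algebraMap' (q := 3)] at h0
    have h3 : (-1 : ZMod p) ^ 3 = -1 := by ring
    rw [h3] at h0
    linear_combination -h0
  · rwa [map_ofNat] at h2
  · intro ha
    have h1 : aeval (algebraMap (ZMod p) (GaloisField p 3) 1) g = 0 := by rw [map_one, ← ha]; exact hag
    rw [aeval_algebraMap_apply] at h1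
    have h3 : aeval (1 : ZMod p) g = 0 := by
      apply (algebraMap (ZMod p) (GaloisField p 3)).injective
      rw [h1, map_zero]
    rw [coe_aeval_eq_eval] at h3
    exact hnoroot 1 h3

/-! ### Degree at least five: Jacobi sums. -/

section chars

variable [Fintype (GaloisField p q)]

/-- Lift of a character of the prime field through the norm. -/
noncomputable def lift (χ : MulChar (ZMod p) ℂ) : MulChar (GaloisField p q) ℂ where
  toFun x := χ (Algebra.norm (ZMod p) x)
  map_one' := by simp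
  map_mul' x y := by simp
  map_nonunit' x hx := by
    have hx0 : x = 0 := by
      by_contra h
      exact hx (isUnit_iff_ne_zero.mpr h)
    have : Algebra.norm (ZMod p) x = 0 := Algebra.norm_eq_zero_iff.mpr hx0
    rw [this]
    exact χ.map_nonunit (by simp)

omit [Fintype (GaloisField p q)] in
theorem lift_apply (χ : MulChar (ZMod p) ℂ) (x : K) : lift (q := q) χ x = χ (Algebra.norm (ZMod p) x) := rfl

omit [Fintype (GaloisField p q)] in
theorem norm_isUnit {x : K} (hx : x ≠ 0) : IsUnit (Algebra.norm (ZMod p) x) :=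
  isUnit_iff_ne_zero.mpr (fun h => hx (Algebra.norm_eq_zero_iff.mp h))

omit [Fintype (GaloisField p q)] in
theorem lift_one : lift (q := q) (1 : MulChar (ZMod p) ℂ) = 1 := by
  apply MulChar.ext
  intro u
  have hu : (u : K) ≠ 0 := u.ne_zero
  rw [lift_apply, MulChar.one_apply (norm_isUnit hu), MulChar.one_apply u.isUnit]

omit [Fintype (GaloisField p q)] in
theorem lift_mul (χ ψ : MulChar (ZMod p) ℂ) : lift (q := q) (χ * ψ) = lift χ * lift ψ := by
  apply MulChar.ext
  intro u
  rw [MulChar.mul_apply, lift_apply, lift_apply, lift_apply, MulChar.mul_apply]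

omit [Fintype (GaloisField p q)] in
theorem lift_ne_one {χ : MulChar (ZMod p) ℂ} (hχ : χ ≠ 1) : lift (q := q) χ ≠ 1 := by
  intro h
  apply hχ
  apply MulChar.ext
  intro u
  obtain ⟨x, hx⟩ := FiniteField.norm_surjective (ZMod p) K (u : ZMod p)
  have hx0 : x ≠ 0 := by
    rintro rfl
    rw [Algebra.norm_eq_zero_iff.mpr rfl] at hx
    exact u.ne_zero hx.symm
  rw [← hx, ← lift_apply (q := q), h, MulChar.one_apply (isUnit_iff_ne_zero.mpr hx0), MulChar.one_apply]
  rw [hx]
  exact u.isUnit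

theorem star_jacobiSum (χ φ : MulChar K ℂ) : star (jacobiSum χ φ) = jacobiSum χ⁻¹ φ⁻¹ := by
  simp only [jacobiSum, star_sum, star_mul', MulChar.star_apply']

theorem norm_jacobi_generic {χ φ : MulChar K ℂ} (hχ : χ ≠ 1) (hφ : φ ≠ 1) (hχφ : χ * φ ≠ 1) :
    ‖jacobiSum χ φ‖ ^ 2 = Fintype.card K := by
  have hchar : ringChar ℂ ≠ ringChar K := by
    rw [ringChar.eq_zero]
    have h : ringChar K = p := by
      have : CharP K p := inferInstance
      exact ringChar.eq K p
    rw [h]
    exact (Fact.out : p.Prime).ne_zero.symm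
  have h := jacobiSum_mul_jacobiSum_inv hchar hχ hφ hχφ
  rw [← star_jacobiSum] at h
  have h2 : ((‖jacobiSum χ φ‖ ^ 2 : ℝ) : ℂ) = (Fintype.card K : ℂ) := by
    rw [← h]
    simp [Complex.mul_conj, Complex.normSq_eq_norm_sq]
  exact_mod_cast h2

theorem norm_jacobi_le (χ ψ : MulChar (ZMod p) ℂ) (h : ¬ (χ = 1 ∧ ψ = 1)) :
    ‖jacobiSum (lift (q := q) χ) (lift ψ)‖ ≤ Real.sqrt (Fintype.card K) := by
  classical
  have hone : (1 : ℝ) ≤ Real.sqrt (Fintype.card K) := by
    rw [Real.one_le_sqrt]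
    exact_mod_cast Fintype.card_pos
  by_cases hχ : χ = 1
  · subst hχ
    have hψ : ψ ≠ 1 := fun hψ => h ⟨rfl, hψ⟩
    rw [lift_one, jacobiSum_one_nontrivial (lift_ne_one hψ)]
    simpa using hone
  by_cases hψ : ψ = 1
  · subst hψ
    rw [lift_one, jacobiSum_comm, jacobiSum_one_nontrivial (lift_ne_one hχ)]
    simpa using hone
  by_cases hχψ : χ * ψ = 1
  · have hψ' : ψ = χ⁻¹ := (eq_inv_of_mul_eq_one_right hχψ)
    have hlift : lift (q := q) ψ = (lift χ)⁻¹ := by
      apply eq_inv_of_mul_eq_one_right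
      rw [← lift_mul, hχψ, lift_one]
    rw [hlift, jacobiSum_nontrivial_inv (lift_ne_one hχ), norm_neg]
    have h2 : (lift (q := q) χ (-1)) ^ 2 = 1 := by
      rw [← map_pow]; simp
    have h3 : ‖lift (q := q) χ (-1)‖ ^ 2 = 1 := by
      rw [← norm_pow, h2, norm_one]
    have h4 : ‖lift (q := q) χ (-1)‖ ≤ 1 := by
      nlinarith [norm_nonneg (lift (q := q) χ (-1))]
    linarith
  · have h2 := norm_jacobi_generic (lift_ne_one (q := q) hχ) (lift_ne_one hψ)
      (by rw [← lift_mul]; exact lift_ne_one hχψ)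
    rw [← h2, Real.sqrt_sq (norm_nonneg _)]

theorem term_eq (hp : p ≠ 2) (χ ψ : MulChar (ZMod p) ℂ) :
    ∑ a : K, χ (Algebra.norm (ZMod p) a) * ψ (Algebra.norm (ZMod p) (2 - a)) =
      χ (Algebra.norm (ZMod p) (2 : K)) * ψ (Algebra.norm (ZMod p) (2 : K)) *
        jacobiSum (lift (q := q) χ) (lift ψ) := by
  rw [jacobiSum, Finset.mul_sum, ← Equiv.sum_comp (Equiv.mulLeft₀ (2 : K) (two_ne_zero_K hp))]
  refine Finset.sum_congr rfl fun b _ => ?_
  have h0 : (Equiv.mulLeft₀ (2 : K) (two_ne_zero_K hp)) b = 2 * b := rfl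
  have h : (2 : K) - 2 * b = 2 * (1 - b) := by ring
  rw [h0, h]
  simp only [map_mul, lift_apply]
  ring

theorem card_identity (hp : p ≠ 2) [DecidableEq K] :
    (((p - 1 : ℕ) : ℂ)) ^ 2 * ((Finset.univ.filter (fun a : K => Algebra.norm (ZMod p) a = 1 ∧
        Algebra.norm (ZMod p) (2 - a) = 1)).card : ℂ) =
      ∑ χ : DirichletCharacter ℂ p, ∑ ψ : DirichletCharacter ℂ p,
        χ (Algebra.norm (ZMod p) (2 : K)) * ψ (Algebra.norm (ZMod p) (2 : K)) *
          jacobiSum (lift (q := q) χ) (lift ψ) := by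
  have hpp : p.Prime := Fact.out
  simp only [← term_eq hp]
  have h1 : ∀ a : K, ∑ χ : DirichletCharacter ℂ p, χ (Algebra.norm (ZMod p) a) =
      if Algebra.norm (ZMod p) a = 1 then ((p - 1 : ℕ) : ℂ) else 0 := by
    intro a
    rw [DirichletCharacter.sum_characters_eq, Nat.totient_prime hpp]
  have h2 : ∑ χ : DirichletCharacter ℂ p, ∑ ψ : DirichletCharacter ℂ p, ∑ a : K,
        χ (Algebra.norm (ZMod p) a) * ψ (Algebra.norm (ZMod p) (2 - a)) =
      ∑ a : K, (∑ χ : DirichletCharacter ℂ p, χ (Algebra.norm (ZMod p) a)) *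
        (∑ ψ : DirichletCharacter ℂ p, ψ (Algebra.norm (ZMod p) (2 - a))) := by
    refine (Finset.sum_congr rfl fun χ _ => Finset.sum_comm).trans ?_
    refine Finset.sum_comm.trans ?_
    refine Finset.sum_congr rfl fun a _ => ?_
    rw [Finset.sum_mul_sum]
  rw [h2]
  simp only [h1]
  rw [Finset.card_filter]
  push_cast
  rw [Finset.mul_sum]
  refine Finset.sum_congr rfl fun a _ => ?_
  by_cases ha : Algebra.norm (ZMod p) a = 1 <;> by_cases hb : Algebra.norm (ZMod p) (2 - a) = 1 <;>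
    simp [ha, hb] <;> ring

theorem real_arith {P s M e : ℝ} (hP : 3 ≤ P) (hs0 : 0 ≤ s) (hs : P ^ 5 ≤ s ^ 2) (hM : M = (P - 1) ^ 2)
    (he1 : e ≤ 1) (he0 : 0 ≤ e) (h : s ^ 2 - 2 - (M - 1) * s ≤ M * e) : False := by
  have hs1 : 3 / 2 * P ^ 2 ≤ s := by
    by_contra hlt
    push Not at hlt
    have h1 : s ^ 2 < (3 / 2 * P ^ 2) ^ 2 := by
      exact pow_lt_pow_left₀ hlt hs0 (by norm_num)
    have h2 : (3 / 2 * P ^ 2) ^ 2 ≤ P ^ 5 := by
      have hP4 : 0 ≤ P ^ 4 := by positivity
      nlinarith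
    linarith
  have hM0 : 0 ≤ M := by rw [hM]; positivity
  have hM1 : M ≤ P ^ 2 := by rw [hM]; nlinarith
  have h3 : M * e ≤ M := by nlinarith
  have hP2 : 9 ≤ P ^ 2 := by nlinarith
  have h4 : (M - 1) * s ≤ P ^ 2 * s := by
    apply mul_le_mul_of_nonneg_right _ hs0
    linarith
  have h5 : s ^ 2 - P ^ 2 * s ≥ 3 / 4 * P ^ 4 := by
    have h6 : s * (s - P ^ 2) ≥ (3 / 2 * P ^ 2) * (1 / 2 * P ^ 2) := by
      apply mul_le_mul hs1 (by linarith) (by positivity) hs0
    nlinarith
  have h7 : 3 / 4 * P ^ 4 ≥ 3 / 4 * 9 * P ^ 2 := by nlinarith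
  nlinarith

theorem exists_of_five (hp : p ≠ 2) (hq5 : 5 ≤ q) :
    ∃ a : K, Algebra.norm (ZMod p) a = 1 ∧ Algebra.norm (ZMod p) (2 - a) = 1 ∧ a ≠ 1 := by
  classical
  have hpp : p.Prime := Fact.out
  have hp3 : 3 ≤ p := by
    have := hpp.two_le
    omega
  set E := Finset.univ.filter (fun a : K => Algebra.norm (ZMod p) a = 1 ∧
    Algebra.norm (ZMod p) (2 - a) = 1) with hE
  suffices h : 1 < E.card by
    obtain ⟨a, ha, hne⟩ := Finset.exists_mem_ne h 1
    have := (Finset.mem_filter.mp ha).2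
    exact ⟨a, this.1, this.2, hne⟩
  by_contra hle
  push Not at hle
  have hid := card_identity (p := p) (q := q) hp
  rw [← hE] at hid
  set s := Real.sqrt (Fintype.card K) with hs
  let f : DirichletCharacter ℂ p × DirichletCharacter ℂ p → ℂ := fun x =>
    x.1 (Algebra.norm (ZMod p) (2 : K)) * x.2 (Algebra.norm (ZMod p) (2 : K)) *
      jacobiSum (lift (q := q) x.1) (lift x.2)
  have hsum : (∑ χ : DirichletCharacter ℂ p, ∑ ψ : DirichletCharacter ℂ p,
        χ (Algebra.norm (ZMod p) (2 : K)) * ψ (Algebra.norm (ZMod p) (2 : K)) *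
          jacobiSum (lift (q := q) χ) (lift ψ)) = ∑ x : DirichletCharacter ℂ p × DirichletCharacter ℂ p, f x := by
    rw [Fintype.sum_prod_type]
  rw [hsum, ← Finset.add_sum_erase Finset.univ f (Finset.mem_univ ((1, 1) : DirichletCharacter ℂ p × DirichletCharacter ℂ p))] at hid
  have h2u : IsUnit (Algebra.norm (ZMod p) (2 : K)) := norm_isUnit (two_ne_zero_K hp)
  have hf1 : f (1, 1) = (Fintype.card K : ℂ) - 2 := by
    change (1 : MulChar (ZMod p) ℂ) _ * (1 : MulChar (ZMod p) ℂ) _ * jacobiSum (lift (q := q) 1) (lift 1) = _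
    rw [MulChar.one_apply h2u, lift_one, jacobiSum_one_one]
    ring
  rw [hf1] at hid
  set R := ∑ x ∈ Finset.univ.erase ((1, 1) : DirichletCharacter ℂ p × DirichletCharacter ℂ p), f x with hR
  have hRn : ‖R‖ ≤ (((p - 1 : ℕ) : ℝ) ^ 2 - 1) * s := by
    have hcard : (Finset.univ.erase ((1, 1) : DirichletCharacter ℂ p × DirichletCharacter ℂ p)).card =
        (p - 1) ^ 2 - 1 := by
      rw [Finset.card_erase_of_mem (Finset.mem_univ _), Finset.card_univ, Fintype.card_prod,
        ← Nat.card_eq_fintype_card, DirichletCharacter.card_eq_totient_of_hasEnoughRootsOfUnity,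
        Nat.totient_prime hpp]
      ring_nf
    have h1 : ‖R‖ ≤ ∑ x ∈ Finset.univ.erase ((1, 1) : DirichletCharacter ℂ p × DirichletCharacter ℂ p), ‖f x‖ :=
      norm_sum_le _ _
    have h2 : ∑ x ∈ Finset.univ.erase ((1, 1) : DirichletCharacter ℂ p × DirichletCharacter ℂ p), ‖f x‖ ≤
        ∑ _x ∈ Finset.univ.erase ((1, 1) : DirichletCharacter ℂ p × DirichletCharacter ℂ p), s := by
      refine Finset.sum_le_sum fun x hx => ?_
      have hne : ¬ (x.1 = 1 ∧ x.2 = 1) := by
        rintro ⟨h1, h2⟩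
        exact (Finset.mem_erase.mp hx).1 (Prod.ext h1 h2)
      have h3 := norm_jacobi_le (q := q) x.1 x.2 hne
      have h4 := DirichletCharacter.norm_le_one x.1 (Algebra.norm (ZMod p) (2 : K))
      have h5 := DirichletCharacter.norm_le_one x.2 (Algebra.norm (ZMod p) (2 : K))
      change ‖x.1 _ * x.2 _ * jacobiSum _ _‖ ≤ s
      rw [norm_mul, norm_mul]
      have h6 := norm_nonneg (x.1 (Algebra.norm (ZMod p) (2 : K)))
      have h7 := norm_nonneg (x.2 (Algebra.norm (ZMod p) (2 : K)))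
      have h8 := norm_nonneg (jacobiSum (lift (q := q) x.1) (lift x.2))
      calc _ ≤ 1 * 1 * ‖jacobiSum (lift (q := q) x.1) (lift x.2)‖ := by gcongr
        _ ≤ s := by simpa using h3
    rw [Finset.sum_const, hcard, nsmul_eq_mul] at h2
    have h3 : (((p - 1) ^ 2 - 1 : ℕ) : ℝ) = ((p - 1 : ℕ) : ℝ) ^ 2 - 1 := by
      have : 1 ≤ (p - 1) ^ 2 := Nat.one_le_pow _ _ (by omega)
      push_cast [Nat.cast_sub this]
      ring
    rw [h3] at h2
    exact h1.trans h2
  -- real part
  have hre := congrArg Complex.re hid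
  have hlhs : (((p - 1 : ℕ) : ℂ) ^ 2 * (E.card : ℂ)).re = ((p - 1 : ℕ) : ℝ) ^ 2 * (E.card : ℝ) := by
    have : ((p - 1 : ℕ) : ℂ) ^ 2 * (E.card : ℂ) = ((((p - 1 : ℕ) : ℝ) ^ 2 * (E.card : ℝ) : ℝ) : ℂ) := by
      push_cast; ring
    rw [this, Complex.ofReal_re]
  have hrhs : (((Fintype.card K : ℂ) - 2) + R).re = (Fintype.card K : ℝ) - 2 + R.re := by
    simp
  rw [hlhs, hrhs] at hre
  have hRre : -‖R‖ ≤ R.re := by
    have := Complex.abs_re_le_norm R
    have h2 := neg_abs_le R.re
    linarith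
  have hcardK : (Fintype.card K : ℝ) = (p : ℝ) ^ q := by
    have h2 : Fintype.card K = p ^ q := by
      rw [← Nat.card_eq_fintype_card]; exact GaloisField.card p q (Fact.out : q.Prime).ne_zero
    rw [h2]; push_cast; rfl
  have hs2 : s ^ 2 = (Fintype.card K : ℝ) := Real.sq_sqrt (by positivity)
  have hP3 : (3 : ℝ) ≤ p := by exact_mod_cast hp3
  have hP5 : (p : ℝ) ^ 5 ≤ s ^ 2 := by
    rw [hs2, hcardK]
    exact pow_le_pow_right₀ (by linarith) hq5
  have hp1 : ((p - 1 : ℕ) : ℝ) = (p : ℝ) - 1 := by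
    rw [Nat.cast_sub hpp.one_le]; simp
  refine real_arith hP3 (Real.sqrt_nonneg _) hP5 (M := ((p - 1 : ℕ) : ℝ) ^ 2) (by rw [hp1]) (e := (E.card : ℝ))
    (by exact_mod_cast hle) (by positivity) ?_
  rw [hre, hs2]
  linarith

end chars

/-- **S1471**. -/
theorem exists_ne_one (hp : p ≠ 2) (hq : q ≠ 2) :
    ∃ a : K, Algebra.norm (ZMod p) a = 1 ∧ Algebra.norm (ZMod p) (2 - a) = 1 ∧ a ≠ 1 := by
  classical
  have hqq : q.Prime := Fact.out
  by_cases h3 : q = 3
  · subst h3
    exact exists_of_three hp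
  · have h5 : 5 ≤ q := by
      by_contra hlt
      have h4 : q ≠ 4 := by
        rintro rfl
        exact absurd hqq (by norm_num)
      have := hqq.two_le
      omega
    letI : Fintype K := Fintype.ofFinite _
    exact exists_of_five hp h5

end Cfsg.Agent.Lib.OddLocal.NormCount
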