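import Mathlib
import Cfsg.Agent.Lib.OddLocal.PGroupRank2

/-!
# `p`-groups with a maximal elementary abelian subgroup of order `p²`
-/

set_option autoImplicit false

namespace Cfsg.Agent.Lib.OddLocal

open Cfsg Subgroup
open scoped commutatorElement

variable {R : Type*} [Group R] [Finite R] {p : ℕ} [hp : Fact p.Prime]

theorem mem_second_center_iff {x : R} : x ∈ Subgroup.upperCentralSeries R 2 ↔ ∀ y : R, x * y * x⁻¹ * y⁻¹ ∈ center R := by
  have h : Subgroup.upperCentralSeries R 2 = Subgroup.upperCentralSeries R (1 + 1) := rfl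
  rw [h, Subgroup.mem_upperCentralSeries_succ_iff, Subgroup.upperCentralSeries_one]
  simp only [commutatorElement_def]

theorem maxElem_main (hR : IsPGroup p R) (hodd : p ≠ 2) (hr : ¬ Cfsg.PRankLE p 2 R)
    (E : Subgroup R) (hE : Cfsg.IsElementaryAbelian p E) (hE2 : Nat.card E = p ^ 2)
    (hEmax : ∀ B : Subgroup R, Cfsg.IsElementaryAbelian p B → E ≤ B → B = E) :
    ¬ E ≤ centralizer ((closure {x : R | x ∈ Subgroup.upperCentralSeries R 2 ∧ x ^ p = 1} : Subgroup R) : Set R) ∧
      Nat.card ↥(closure {x : R | x ∈ center R ∧ x ^ p = 1}) = p ∧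
      (Cfsg.IsElementaryAbelian p (closure {x : R | x ∈ Subgroup.upperCentralSeries R 2 ∧ x ^ p = 1}) ∧
        Nat.card ↥(closure {x : R | x ∈ Subgroup.upperCentralSeries R 2 ∧ x ^ p = 1}) = p ^ 2) ∧
      (centralizer ((closure {x : R | x ∈ Subgroup.upperCentralSeries R 2 ∧ x ^ p = 1} : Subgroup R) : Set R)).Characteristic ∧
      (centralizer ((closure {x : R | x ∈ Subgroup.upperCentralSeries R 2 ∧ x ^ p = 1} : Subgroup R) : Set R)).index = p := by
  classical
  have hpp := hp.out
  have hp1 := hpp.one_lt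
  -- `E` is not normal
  have hmaxelt : ∀ v : R, v ∈ centralizer (E : Set R) → v ^ p = 1 → v ∈ E := by
    intro v hv hvp
    have h1 := hEmax _ (isElementaryAbelian_sup_zpowers' hE hv hvp) le_sup_left
    rw [← h1]
    exact (le_sup_right : zpowers v ≤ E ⊔ zpowers v) (mem_zpowers v)
  have hEnn : ¬ E.Normal := by
    intro hn
    obtain ⟨x, hxc, hxE, hxp⟩ := exists_mem_centralizer_of_rank hR E hE hE2 hr
    exact hxE (hmaxelt x hxc hxp)
  -- a central element of order `p`
  have hRnt : Nontrivial R := by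
    by_contra h
    rw [not_nontrivial_iff_subsingleton] at h
    rw [Nat.card_eq_one_iff_unique.mpr ⟨inferInstance, ⟨1⟩⟩] at hE2
    have := Nat.one_lt_pow (two_ne_zero) hp1
    omega
  obtain ⟨z, hzc, hzo⟩ : ∃ z ∈ center R, orderOf z = p := by
    have hct : Nontrivial (center R) := hR.center_nontrivial
    have hd : p ∣ Nat.card (center R) := by
      obtain ⟨k, hk⟩ := IsPGroup.iff_card.mp (hR.to_subgroup (center R))
      rw [hk]
      have hk0 : k ≠ 0 := by
        rintro rfl
        rw [pow_zero] at hk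
        have := Finite.one_lt_card (α := center R)
        omega
      exact dvd_pow_self p hk0
    obtain ⟨g, hg⟩ := exists_prime_orderOf_dvd_card' p hd
    exact ⟨g, g.2, by rw [← Subgroup.orderOf_coe] at hg; exact hg⟩
  have hzp1 : z ^ p = 1 := by rw [← hzo, pow_orderOf_eq_one]
  have hzn := zpowers_normal_of_central hzc
  have hzE : z ∈ E := hmaxelt z (fun e _ => (Subgroup.mem_center_iff.mp hzc e)) hzp1
  have hzleE : zpowers z ≤ E := zpowers_le.mpr hzE
  have hcz : Nat.card (zpowers z) = p := by rw [Nat.card_zpowers, hzo]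
  have hzp : ∀ u ∈ zpowers z, u ^ p = 1 := by
    rintro _ ⟨i, rfl⟩
    show (z ^ i) ^ p = 1
    rw [← zpow_natCast, ← zpow_mul, mul_comm, zpow_mul, zpow_natCast, hzp1, one_zpow]
  have hcentral : ∀ (b c : R), c ∈ zpowers z → b * c = c * b := by
    intro b c hc
    have : c ∈ center R := (zpowers_le.mpr hzc) hc
    exact Subgroup.mem_center_iff.mp this b
  -- generation of `E` by `z` and any element outside `⟨z⟩`
  have hEgen : ∀ e ∈ E, e ∉ zpowers z → E = zpowers z ⊔ zpowers e := by
    intro e he hez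
    symm
    apply Subgroup.eq_of_le_of_card_ge
    · exact sup_le hzleE (zpowers_le.mpr he)
    · rw [Cfsg.Agent.Lib.PGroup.card_sup_zpowers_central hzc hzo (hE.2 e he) hez, hE2]
  -- central elements of order `p` lie in `⟨z⟩`
  have hZ1 : ∀ v ∈ center R, v ^ p = 1 → v ∈ zpowers z := by
    intro v hvc hvp
    by_contra hvz
    have hvE : v ∈ E := hmaxelt v (fun e _ => (Subgroup.mem_center_iff.mp hvc e)) hvp
    apply hEnn
    rw [hEgen v hvE hvz]
    have hnv := zpowers_normal_of_central hvc
    exact Subgroup.sup_normal _ _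
  have hZ1eq : closure {x : R | x ∈ center R ∧ x ^ p = 1} = zpowers z := by
    apply le_antisymm
    · rw [closure_le]
      rintro v ⟨hvc, hvp⟩
      exact hZ1 v hvc hvp
    · rw [zpowers_le]
      exact Subgroup.subset_closure ⟨hzc, hzp1⟩
  -- an element `e` of `E` outside `⟨z⟩`
  obtain ⟨e, heE, hez⟩ : ∃ e ∈ E, e ∉ zpowers z := by
    by_contra h
    push Not at h
    have h1 : E ≤ zpowers z := h
    have h2 := Subgroup.card_le_of_le h1
    rw [hE2, hcz] at h2
    have h3 : p * p ≤ p * 1 := by nlinarith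
    nlinarith
  obtain ⟨d, hdp, hdz, hd⟩ := exists_central_step_order_p hR hodd hzc hzo (hE.2 e heE) hez
  set S₂ : Set R := {x : R | x ∈ Subgroup.upperCentralSeries R 2 ∧ x ^ p = 1} with hS₂
  set W : Subgroup R := closure S₂ with hW
  -- properties of elements of `W`
  have hWprop : ∀ w ∈ W, w ∈ Subgroup.upperCentralSeries R 2 ∧ w ^ p = 1 := by
    intro w hw
    induction hw using Subgroup.closure_induction with
    | mem u hu => exact hu
    | one => exact ⟨one_mem _, one_pow _⟩
    | mul u v _ _ ihu ihv =>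
      refine ⟨mul_mem ihu.1 ihv.1, ?_⟩
      have hc : ⁅v, u⁆ ∈ center R := by
        have := (mem_second_center_iff.mp ihv.1) u
        rwa [commutatorElement_def]
      have h1 : Commute ⁅v, u⁆ u := (Subgroup.mem_center_iff.mp hc u).symm
      have h2 : Commute ⁅v, u⁆ v := (Subgroup.mem_center_iff.mp hc v).symm
      refine mul_pow_eq_one_of_class_two hodd ihu.2 ihv.2 h1 h2 ?_
      rw [← Cfsg.Agent.Lib.Transfer.comm_pow_left h2, ihv.2]
      simp
    | inv u _ ih => exact ⟨inv_mem ih.1, by rw [inv_pow, ih.2, inv_one]⟩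
  -- commutators of elements of `W` lie in `⟨z⟩`
  have hWcomm : ∀ w ∈ W, ∀ r : R, w * r * w⁻¹ * r⁻¹ ∈ zpowers z := by
    intro w hw r
    obtain ⟨h1, h2⟩ := hWprop w hw
    have hc : ⁅w, r⁆ ∈ center R := by
      have := (mem_second_center_iff.mp h1) r
      rwa [commutatorElement_def]
    have h3 : Commute ⁅w, r⁆ w := (Subgroup.mem_center_iff.mp hc w).symm
    have h4 : ⁅w, r⁆ ^ p = 1 := by
      rw [← Cfsg.Agent.Lib.Transfer.comm_pow_left h3, h2]
      simp
    have := hZ1 _ hc h4
    rwa [commutatorElement_def] at this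
  have hzW : z ∈ W := Subgroup.subset_closure ⟨(Subgroup.upperCentralSeries_mono R (show 1 ≤ 2 by norm_num)) (by
    rw [Subgroup.upperCentralSeries_one]; exact hzc), hzp1⟩
  have hzleW : zpowers z ≤ W := zpowers_le.mpr hzW
  have hdW : d ∈ W := by
    apply Subgroup.subset_closure
    refine ⟨mem_second_center_iff.mpr ?_, hdp⟩
    intro y
    have h1 := hd y
    have h2 : d * y * d⁻¹ * y⁻¹ = (y * d * y⁻¹ * d⁻¹)⁻¹ := by group
    rw [h2]
    exact (zpowers_le.mpr hzc) (inv_mem h1)
  have hzdW : zpowers z ⊔ zpowers d ≤ W := sup_le hzleW (zpowers_le.mpr hdW)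
  have hcardzd := Cfsg.Agent.Lib.PGroup.card_sup_zpowers_central hzc hzo hdp hdz
  -- `E` is not contained in `W`
  have hEW : ¬ E ≤ W := by
    intro h
    apply hEnn
    constructor
    intro a ha r
    have h1 := hWcomm a (h ha) r
    have h2 : r * a * r⁻¹ = (a * r * a⁻¹ * r⁻¹)⁻¹ * a := by group
    rw [h2]
    exact mul_mem (inv_mem (hzleE h1)) ha
  obtain ⟨e₀, he₀E, he₀W⟩ : ∃ e₀ ∈ E, e₀ ∉ W := by
    by_contra h
    push Not at h
    exact hEW h
  have he₀z : e₀ ∉ zpowers z := fun h => he₀W (hzleW h)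
  have hEe₀ := hEgen e₀ he₀E he₀z
  -- upper bound on `W`
  have hWcard : Nat.card W = p ^ 2 := by
    apply le_antisymm _ (by rw [← hcardzd]; exact Subgroup.card_le_of_le hzdW)
    let φ : W →* zpowers z := MonoidHom.mk' (fun w => ⟨(w : R) * e₀ * (w : R)⁻¹ * e₀⁻¹, hWcomm w w.2 e₀⟩) (by
      intro f g
      apply Subtype.ext
      show ((f * g : W) : R) * e₀ * ((f * g : W) : R)⁻¹ * e₀⁻¹ =
        ((f : R) * e₀ * (f : R)⁻¹ * e₀⁻¹) * ((g : R) * e₀ * (g : R)⁻¹ * e₀⁻¹)
      have h1 := hcentral (f : R) _ (hWcomm g g.2 e₀)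
      have h2 := hcentral ((f : R) * e₀ * (f : R)⁻¹ * e₀⁻¹) _ (hWcomm g g.2 e₀)
      have e' : ((f * g : W) : R) * e₀ * ((f * g : W) : R)⁻¹ * e₀⁻¹ =
          ((f : R) * ((g : R) * e₀ * (g : R)⁻¹ * e₀⁻¹)) * e₀ * (f : R)⁻¹ * e₀⁻¹ := by
        push_cast; group
      rw [e', h1]
      have e2 : ((g : R) * e₀ * (g : R)⁻¹ * e₀⁻¹) * (f : R) * e₀ * (f : R)⁻¹ * e₀⁻¹ =
          ((g : R) * e₀ * (g : R)⁻¹ * e₀⁻¹) * ((f : R) * e₀ * (f : R)⁻¹ * e₀⁻¹) := by group
      rw [e2, h2])
    have hker : φ.ker.map W.subtype ≤ zpowers z := by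
      rintro _ ⟨w, hw, rfl⟩
      have h1 : φ w = 1 := hw
      have h2 : (w : R) * e₀ * (w : R)⁻¹ * e₀⁻¹ = 1 := congrArg Subtype.val h1
      have h3 : (w : R) * e₀ = e₀ * (w : R) := by
        have : (w : R) * e₀ * (w : R)⁻¹ = e₀ := by
          calc (w : R) * e₀ * (w : R)⁻¹ = ((w : R) * e₀ * (w : R)⁻¹ * e₀⁻¹) * e₀ := by group
            _ = e₀ := by rw [h2, one_mul]
        calc (w : R) * e₀ = ((w : R) * e₀ * (w : R)⁻¹) * (w : R) := by group
          _ = e₀ * (w : R) := by rw [this]
      have h4 : (w : R) ∈ centralizer (E : Set R) := by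
        have h5 : zpowers z ⊔ zpowers e₀ ≤ centralizer {(w : R)} := by
          refine sup_le ?_ ?_
          · rw [zpowers_le, mem_centralizer_singleton_iff]
            exact (hcentral (w : R) z (mem_zpowers z)).symm
          · rw [zpowers_le, mem_centralizer_singleton_iff]
            exact h3.symm
        rw [mem_centralizer_iff]
        intro u hu
        rw [SetLike.mem_coe, hEe₀] at hu
        have h6 := h5 hu
        rw [mem_centralizer_singleton_iff] at h6
        exact h6
      have hwE : (w : R) ∈ E := hmaxelt _ h4 (hWprop w w.2).2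
      by_contra hwz
      apply hEW
      rw [hEgen _ hwE hwz]
      exact sup_le hzleW (zpowers_le.mpr w.2)
    have hkerc : Nat.card φ.ker ≤ p := by
      have h1 := Subgroup.card_le_of_le hker
      rwa [Subgroup.card_map_of_injective W.subtype_injective, hcz] at h1
    have hrange : Nat.card φ.range ≤ p := by
      have h1 : Nat.card φ.range ≤ Nat.card (zpowers z) := Subgroup.card_le_card_group _
      rwa [hcz] at h1
    have h1 := Subgroup.card_mul_index φ.ker
    rw [Subgroup.index_ker] at h1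
    rw [← h1, sq]
    exact Nat.mul_le_mul hkerc hrange
  have hWeq : W = zpowers z ⊔ zpowers d := by
    symm
    apply Subgroup.eq_of_le_of_card_ge hzdW
    rw [hcardzd, hWcard]
  have hWe : Cfsg.IsElementaryAbelian p W := by
    refine ⟨?_, fun a ha => (hWprop a ha).2⟩
    rw [hWeq]
    exact Cfsg.Agent.Lib.PGroup.isMulCommutative_sup_zpowers_central hzc
  -- `W` is characteristic
  have hWchar : W.Characteristic := by
    rw [characteristic_iff_map_le]
    intro f
    rw [hW, MonoidHom.map_closure, closure_le]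
    rintro _ ⟨x, ⟨hx1, hx2⟩, rfl⟩
    apply Subgroup.subset_closure
    refine ⟨?_, ?_⟩
    · have h1 : (Subgroup.upperCentralSeries R 2).Characteristic := inferInstance
      have h2 := characteristic_iff_map_le.mp h1 f
      exact h2 ⟨x, hx1, rfl⟩
    · show f x ^ p = 1
      have : f (x ^ p) = f x ^ p := map_pow f x p
      rw [← this, hx2, map_one]
  have hWnorm : W.Normal := Subgroup.normal_of_characteristic W
  -- `E` does not centralize `W`
  have hnotC : ¬ E ≤ centralizer (W : Set R) := by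
    intro h
    have hWE : W ≤ E := by
      intro w hw
      apply hmaxelt w _ (hWprop w hw).2
      rw [mem_centralizer_iff]
      intro u hu
      have := h hu
      rw [mem_centralizer_iff] at this
      exact (this w hw).symm
    have hWEeq : W = E := Subgroup.eq_of_le_of_card_ge hWE (by rw [hE2, hWcard])
    exact hEW hWEeq.ge
  refine ⟨hnotC, ?_, ⟨hWe, hWcard⟩, ?_, ?_⟩
  · rw [hZ1eq]; exact hcz
  · haveI := hWchar
    infer_instance
  · -- index
    have h1 := card_le_mul_card_inf_centralizer hR W hWe hWcard ⊤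
    rw [top_inf_eq, Subgroup.card_top] at h1
    have h2 := Subgroup.card_mul_index (centralizer (W : Set R))
    have hpos : 0 < Nat.card (centralizer (W : Set R)) := Nat.card_pos
    have hle : (centralizer (W : Set R)).index ≤ p := by
      rw [← h2, mul_comm p] at h1
      exact Nat.le_of_mul_le_mul_left h1 hpos
    have hne1 : (centralizer (W : Set R)).index ≠ 1 := by
      intro h
      rw [Subgroup.index_eq_one] at h
      apply hnotC
      rw [h]
      exact le_top
    have hdvd : (centralizer (W : Set R)).index ∣ Nat.card R := Subgroup.index_dvd_card _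
    obtain ⟨n, hn⟩ := IsPGroup.iff_card.mp hR
    rw [hn] at hdvd
    obtain ⟨k, _, hk⟩ := (Nat.dvd_prime_pow hpp).mp hdvd
    rw [hk] at hle hne1 ⊢
    cases k with
    | zero => simp at hne1
    | succ k =>
      cases k with
      | zero => simp
      | succ k =>
        exfalso
        have h3 : p ^ 2 ≤ p ^ (k + 1 + 1) := Nat.pow_le_pow_right hpp.pos (by omega)
        have h4 : p * 2 ≤ p * p := Nat.mul_le_mul_left _ hpp.two_le
        nlinarith

end Cfsg.Agent.Lib.OddLocal
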