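import Mathlib
import Cfsg.Prelude.Def_OddOrderLocal
import Cfsg.Agent.Lib.Uniq.Trans
import Cfsg.Agent.Lib.Uniq.Rank
import Cfsg.Agent.Lib.Uniq.Trans2
import Cfsg.Agent.Lib.OddLocal.Omega
import Cfsg.Agent.Lib.Hall.Generation
import Cfsg.Agent.Lib.Uniq.THOmega

/-!
# The transitivity theorem for `p`-constrained locals

The local lemma: when all the `p`-elements of `C(E)` lie in `E`, an `E`-invariant `p'`-subgroup of a
`p`-constrained group containing `E` lies in the `p'`-core (for `p` odd this is S1302; for class at most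
two the argument is below). From the local lemma and rank three, the usual orbit argument gives
transitivity.
-/

set_option autoImplicit false

namespace Cfsg.Agent.Lib.OddLocal.TransThm

open Subgroup Cfsg
open Cfsg.Agent.Lib.Uniq Cfsg.Agent.Lib.Core
open scoped Pointwise commutatorElement

variable {G : Type*} [Group G] [Finite G]

theorem eq_one_of_conj_eq_mul {u x z : G} (hz : Commute u z) (h : u * x * u⁻¹ = x * z)
    (hord : (orderOf u).Coprime (orderOf z)) : z = 1 := by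
  have key : ∀ n : ℕ, u ^ n * x * (u ^ n)⁻¹ = x * z ^ n := by
    intro n
    induction n with
    | zero => simp
    | succ n ih =>
      calc u ^ (n + 1) * x * (u ^ (n + 1))⁻¹ = u ^ n * (u * x * u⁻¹) * (u ^ n)⁻¹ := by
            rw [pow_succ]; group
        _ = u ^ n * x * (u ^ n)⁻¹ * (u ^ n * z * (u ^ n)⁻¹) := by rw [h]; group
        _ = x * z ^ n * z := by
            rw [ih, (hz.pow_left n).eq, mul_inv_cancel_right]
        _ = x * z ^ (n + 1) := by rw [pow_succ, mul_assoc]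
  have h1 := key (orderOf u)
  rw [pow_orderOf_eq_one] at h1
  simp only [one_mul, inv_one, mul_one] at h1
  have h2 : z ^ orderOf u = 1 := by
    have := mul_left_cancel (a := x) (b := 1) (c := z ^ orderOf u) (by simpa using h1)
    exact this.symm
  have h3 := orderOf_dvd_of_pow_eq_one h2
  exact orderOf_eq_one_iff.mp (Nat.eq_one_of_dvd_coprimes hord.symm dvd_rfl h3)

/-- The abstract core of the class-two case. -/
theorem centralizes_of_class_two {p : ℕ} [Fact p.Prime] {A Q W : Subgroup G}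
    (hQ : (Nat.card Q).Coprime p) (hAQ : A ≤ normalizer (Q : Set G))
    (hW : IsPGroup p W) (hAW : A ≤ normalizer (W : Set G)) (hQW : Q ≤ normalizer (W : Set G))
    (hfix : ∀ x ∈ W, x ∈ centralizer (A : Set G) → x ∈ normalizer (Q : Set G))
    (hclass : ∀ x ∈ W, ∀ a ∈ A, (∀ z ∈ W, Commute ⁅x, a⁆ z) ∧ ∀ b ∈ A, Commute ⁅x, a⁆ b) :
    Q ≤ centralizer (W : Set G) := by
  have hcopW := coprime_card_of_isPGroup hW hQ
  have hsolv := isSolvable_of_isPGroup hW
  -- elements of `W ∩ C(A)` are fixed by `Q`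
  have hcent : ∀ z ∈ W, z ∈ centralizer (A : Set G) → ∀ y ∈ Q, y * z * y⁻¹ = z := by
    intro z hzW hzC y hy
    have hzN := hfix z hzW hzC
    have h1 : z * y * z⁻¹ ∈ Q := (mem_normalizer_iff.mp hzN y).mp hy
    have h2 : y * z * y⁻¹ ∈ W := (mem_normalizer_iff.mp (hQW hy) z).mp hzW
    have h3 : z⁻¹ * (y * z * y⁻¹) ∈ W := W.mul_mem (W.inv_mem hzW) h2
    have h4 : z⁻¹ * (y * z * y⁻¹) ∈ Q := by
      have h5 : z⁻¹ * (y * z * y⁻¹) = (z⁻¹ * y * z) * y⁻¹ := by group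
      rw [h5]
      refine Q.mul_mem ?_ (Q.inv_mem hy)
      have h6 := (mem_normalizer_iff.mp (Subgroup.inv_mem _ hzN) y).mp hy
      simpa using h6
    have h5 : z⁻¹ * (y * z * y⁻¹) = 1 := by
      have h7 := orderOf_dvd_natCard (⟨_, h3⟩ : W)
      have h8 := orderOf_dvd_natCard (⟨_, h4⟩ : Q)
      rw [Subgroup.orderOf_mk] at h7 h8
      exact orderOf_eq_one_iff.mp (Nat.eq_one_of_dvd_coprimes hcopW.symm h7 h8)
    have h6 := congrArg (fun t => z * t) h5
    simpa using h6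
  -- the commutator `⁅x⁻¹, a⁆`
  have hcW : ∀ x ∈ W, ∀ a ∈ A, ⁅x⁻¹, a⁆ ∈ W := by
    intro x hx a ha
    have h1 : a * x * a⁻¹ ∈ W := (mem_normalizer_iff.mp (hAW ha) x).mp hx
    have h2 : ⁅x⁻¹, a⁆ = x⁻¹ * (a * x * a⁻¹) := by
      simp only [commutatorElement_def]
      group
    rw [h2]
    exact W.mul_mem (W.inv_mem hx) h1
  have hcC : ∀ x ∈ W, ∀ a ∈ A, ⁅x⁻¹, a⁆ ∈ centralizer (A : Set G) := by
    intro x hx a ha
    rw [mem_centralizer_iff]
    intro b hb
    exact ((hclass x⁻¹ (W.inv_mem hx) a ha).2 b hb).eq.symm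
  have hcq : ∀ x ∈ W, ∀ a ∈ A, ∀ y ∈ Q, y * ⁅x⁻¹, a⁆ * y⁻¹ = ⁅x⁻¹, a⁆ :=
    fun x hx a ha y hy => hcent _ (hcW x hx a ha) (hcC x hx a ha) y hy
  have hact : ∀ x ∈ W, ∀ a ∈ A, a * x * a⁻¹ = x * ⁅x⁻¹, a⁆ := by
    intro x _ a _
    simp only [commutatorElement_def]
    group
  -- `⁅y, a⁆` centralizes `W`
  have ht : ∀ y ∈ Q, ∀ a ∈ A, ∀ x ∈ W, ⁅y, a⁆ * x * ⁅y, a⁆⁻¹ = x := by
    intro y hy a ha x hx
    have hx' : y⁻¹ * x * y ∈ W := by
      have := (mem_normalizer_iff.mp (Subgroup.inv_mem _ (hQW hy)) x).mp hx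
      simpa using this
    set x' := y⁻¹ * x * y with hx'd
    set c₁ := ⁅x⁻¹, a⁻¹⁆ with hc₁
    set c₂ := ⁅x'⁻¹, a⁆ with hc₂
    have ha' : a⁻¹ ∈ A := A.inv_mem ha
    have e1 : a⁻¹ * x * a = x * c₁ := by
      have := hact x hx a⁻¹ ha'
      simpa using this
    have e2 : a * x' * a⁻¹ = x' * c₂ := hact x' hx' a ha
    have hc₁y : y * c₁ * y⁻¹ = c₁ := hcq x hx a⁻¹ ha' y hy
    have hc₁y' : y⁻¹ * c₁ * y = c₁ := by
      have := hcq x hx a⁻¹ ha' y⁻¹ (Q.inv_mem hy)
      simpa using this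
    have hc₂y : y * c₂ * y⁻¹ = c₂ := hcq x' hx' a ha y hy
    have hc₁a : a * c₁ * a⁻¹ = c₁ := by
      have := mem_centralizer_iff.mp (hcC x hx a⁻¹ ha') a ha
      rw [this, mul_inv_cancel_right]
    have htQ : ⁅y, a⁆ ∈ Q := by
      have h1 : a * y⁻¹ * a⁻¹ ∈ Q := (mem_normalizer_iff.mp (hAQ ha) y⁻¹).mp (Q.inv_mem hy)
      have h2 : ⁅y, a⁆ = y * (a * y⁻¹ * a⁻¹) := by
        simp only [commutatorElement_def]
        group
      rw [h2]
      exact Q.mul_mem hy h1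
    set z := c₂ * c₁ with hz
    have hzW : z ∈ W := W.mul_mem (hcW x' hx' a ha) (hcW x hx a⁻¹ ha')
    have hzC : z ∈ centralizer (A : Set G) := mul_mem (hcC x' hx' a ha) (hcC x hx a⁻¹ ha')
    have hconj : ⁅y, a⁆ * x * ⁅y, a⁆⁻¹ = x * z := by
      have step : ⁅y, a⁆ * x * ⁅y, a⁆⁻¹ = y * (a * (y⁻¹ * (a⁻¹ * x * a) * y) * a⁻¹) * y⁻¹ := by
        simp only [commutatorElement_def]
        group
      have s2 : y⁻¹ * (a⁻¹ * x * a) * y = x' * c₁ := by
        rw [e1, hx'd]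
        calc y⁻¹ * (x * c₁) * y = y⁻¹ * x * y * (y⁻¹ * c₁ * y) := by group
          _ = y⁻¹ * x * y * c₁ := by rw [hc₁y']
      have s3 : a * (x' * c₁) * a⁻¹ = x' * c₂ * c₁ := by
        calc a * (x' * c₁) * a⁻¹ = (a * x' * a⁻¹) * (a * c₁ * a⁻¹) := by group
          _ = x' * c₂ * c₁ := by rw [e2, hc₁a]
      have s4 : y * (x' * c₂ * c₁) * y⁻¹ = x * z := by
        calc y * (x' * c₂ * c₁) * y⁻¹
            = (y * x' * y⁻¹) * (y * c₂ * y⁻¹) * (y * c₁ * y⁻¹) := by group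
          _ = x * c₂ * c₁ := by
              rw [hc₂y, hc₁y, hx'd]
              group
          _ = x * z := by rw [hz, mul_assoc]
      rw [step, s2, s3, s4]
    have hcomm : Commute ⁅y, a⁆ z := by
      have := hcent z hzW hzC _ htQ
      show _ * _ = _ * _
      calc ⁅y, a⁆ * z = ⁅y, a⁆ * z * ⁅y, a⁆⁻¹ * ⁅y, a⁆ := by group
        _ = z * ⁅y, a⁆ := by rw [this]
    have h0 : z = 1 := by
      apply eq_one_of_conj_eq_mul hcomm hconj
      have h7 := orderOf_dvd_natCard (⟨_, hzW⟩ : W)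
      have h8 := orderOf_dvd_natCard (⟨_, htQ⟩ : Q)
      rw [Subgroup.orderOf_mk] at h7 h8
      exact Nat.Coprime.coprime_dvd_left h8 (Nat.Coprime.coprime_dvd_right h7 hcopW)
    rw [hconj, h0, mul_one]
  -- `⁅W, Q⁆ ≤ C(A)`
  have hcomm : ⁅W, Q⁆ ≤ W ⊓ centralizer (A : Set G) := by
    rw [Subgroup.commutator_le]
    intro x hx y hy
    refine Subgroup.mem_inf.mpr ⟨?_, ?_⟩
    · have h2 : y * x⁻¹ * y⁻¹ ∈ W := (mem_normalizer_iff.mp (hQW hy) x⁻¹).mp (W.inv_mem hx)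
      have h3 : ⁅x, y⁆ = x * (y * x⁻¹ * y⁻¹) := by
        simp only [commutatorElement_def]
        group
      rw [h3]
      exact W.mul_mem hx h2
    · rw [mem_centralizer_iff]
      intro a ha
      have hinv : y * x⁻¹ * y⁻¹ ∈ W := (mem_normalizer_iff.mp (hQW hy) x⁻¹).mp (W.inv_mem hx)
      set c := ⁅x⁻¹, a⁆ with hc
      have e1 : a * x * a⁻¹ = x * c := hact x hx a ha
      have e1' : a * x⁻¹ * a⁻¹ = c⁻¹ * x⁻¹ := by
        have : a * x⁻¹ * a⁻¹ = (a * x * a⁻¹)⁻¹ := by group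
        rw [this, e1]
        group
      -- `⁅a, y⁆` centralizes `W`
      have ht' : ∀ w ∈ W, ⁅a, y⁆ * w * ⁅a, y⁆⁻¹ = w := by
        intro w hw
        have h1 := ht y hy a ha w hw
        have h2 : ⁅a, y⁆ = ⁅y, a⁆⁻¹ := (commutatorElement_inv y a).symm
        rw [h2]
        have h4 : ⁅y, a⁆⁻¹ * (⁅y, a⁆ * w * ⁅y, a⁆⁻¹) * ⁅y, a⁆ = w := by group
        rw [h1] at h4
        simpa using h4
      have hc' : y * c * y⁻¹ = c := hcq x hx a ha y hy
      have hcinv : y * c⁻¹ * y⁻¹ = c⁻¹ := by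
        have : y * c⁻¹ * y⁻¹ = (y * c * y⁻¹)⁻¹ := by group
        rw [this, hc']
      have e2 : a * (y * x⁻¹ * y⁻¹) * a⁻¹ = c⁻¹ * (y * x⁻¹ * y⁻¹) := by
        have hw : y * (a * x⁻¹ * a⁻¹) * y⁻¹ ∈ W := by
          rw [e1']
          have h0 : c⁻¹ * x⁻¹ ∈ W := W.mul_mem (W.inv_mem (hcW x hx a ha)) (W.inv_mem hx)
          exact (mem_normalizer_iff.mp (hQW hy) _).mp h0
        have h1 : a * (y * x⁻¹ * y⁻¹) * a⁻¹
            = ⁅a, y⁆ * (y * (a * x⁻¹ * a⁻¹) * y⁻¹) * ⁅a, y⁆⁻¹ := by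
          simp only [commutatorElement_def]
          group
        rw [h1, ht' _ hw, e1']
        calc y * (c⁻¹ * x⁻¹) * y⁻¹ = (y * c⁻¹ * y⁻¹) * (y * x⁻¹ * y⁻¹) := by group
          _ = c⁻¹ * (y * x⁻¹ * y⁻¹) := by rw [hcinv]
      have h3 : ⁅x, y⁆ = x * (y * x⁻¹ * y⁻¹) := by
        simp only [commutatorElement_def]
        group
      rw [h3]
      calc a * (x * (y * x⁻¹ * y⁻¹)) = a * x * a⁻¹ * (a * (y * x⁻¹ * y⁻¹) * a⁻¹) * a := by group
        _ = x * c * (c⁻¹ * (y * x⁻¹ * y⁻¹)) * a := by rw [e1, e2]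
        _ = x * (y * x⁻¹ * y⁻¹) * a := by group
  have hcentcomm : Q ≤ centralizer ((⁅W, Q⁆ : Subgroup G) : Set G) := by
    intro y hy
    rw [mem_centralizer_iff]
    intro z hz
    have h1 := hcent z (Subgroup.mem_inf.mp (hcomm hz)).1 (Subgroup.mem_inf.mp (hcomm hz)).2 y hy
    calc z * y = y * (y⁻¹ * z * y) := by group
      _ = y * z := by
        have : y⁻¹ * z * y = z := by
          have h2 : y⁻¹ * (y * z * y⁻¹) * y = z := by group
          rw [h1] at h2
          exact h2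
        rw [this]
  have hfixT := Cfsg.Agent.Lib.Hall.commutator_commutator_eq Q W hQW hcopW (Or.inr hsolv)
  have h2 : ⁅⁅W, Q⁆, Q⁆ = ⊥ := comm_eq_bot_iff_le_centralizer'.mpr hcentcomm
  rw [hfixT] at h2
  exact comm_eq_bot_iff_le_centralizer'.mp h2

/-- Lifting a `p`-element of the centralizer modulo a normal `p'`-subgroup. -/
theorem exists_lift_pElement_centralizer {p : ℕ} [Fact p.Prime] {A O : Subgroup G} [hO : O.Normal]
    (hOc : (Nat.card O).Coprime p) (hA : IsPGroup p A) {z : G ⧸ O}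
    (hz : z ∈ centralizer ((A.map (QuotientGroup.mk' O) : Subgroup (G ⧸ O)) : Set (G ⧸ O)))
    (hzo : IsPGroup p (zpowers z)) :
    ∃ y : G, QuotientGroup.mk' O y = z ∧ y ∈ centralizer (A : Set G) ∧ IsPGroup p (zpowers y) := by
  have hpp : p.Prime := Fact.out
  obtain ⟨x, rfl⟩ := QuotientGroup.mk'_surjective O z
  set π := QuotientGroup.mk' O with hπ
  have hcopAO : (Nat.card A).Coprime (Nat.card O) := (coprime_card_of_isPGroup (A := O) hA hOc).symm
  have hx : ∀ a ∈ A, x⁻¹ * (a * x * a⁻¹) ∈ O := by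
    intro a ha
    have h1 := Subgroup.mem_centralizer_iff.mp hz (π a) ⟨a, ha, rfl⟩
    have h2 : π (a * x * a⁻¹) = π x := by
      rw [map_mul, map_mul, map_inv, h1]
      group
    exact (QuotientGroup.eq (s := O)).mp h2.symm
  obtain ⟨n, hn, hn2⟩ := Cfsg.Agent.Lib.FStar.exists_coset_centralizing
    (fun a _ y hy => hO.conj_mem y hy a) hcopAO (Or.inl (isSolvable_of_isPGroup hA)) x hx
  set x₁ := x * n with hx₁
  have hπx₁ : π x₁ = π x := by
    have h0 : π n = 1 := (QuotientGroup.eq_one_iff n).mpr hn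
    rw [hx₁, map_mul, h0, mul_one]
  have hx₁C : x₁ ∈ centralizer (A : Set G) := by
    rw [Subgroup.mem_centralizer_iff]
    intro a ha
    have h1 := hn2 a ha
    calc a * x₁ = a * x₁ * a⁻¹ * a := by group
      _ = x₁ * a := by rw [h1]
  obtain ⟨u, v, huv, hcomm, ⟨k, hk⟩, hv, huz, hvz⟩ := Cfsg.Agent.Lib.Block.exists_jordan (p := p) x₁
  have hzpC : zpowers x₁ ≤ centralizer (A : Set G) := (Subgroup.zpowers_le).mpr hx₁C
  have hπv : π v = 1 := by
    have h1 : π v ∈ zpowers (π x₁) := by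
      have := Subgroup.mem_map_of_mem π hvz
      rwa [MonoidHom.map_zpowers] at this
    rw [hπx₁] at h1
    have h2 : IsPGroup p (zpowers (π v)) := hzo.to_le ((Subgroup.zpowers_le).mpr h1)
    obtain ⟨j, hj⟩ := IsPGroup.iff_card.mp h2
    rw [Nat.card_zpowers] at hj
    have h3 : orderOf (π v) ∣ orderOf v := orderOf_map_dvd π v
    rw [hj] at h3
    have h4 : j = 0 := by
      by_contra hj0
      exact hv ((dvd_pow_self p hj0).trans h3)
    rw [h4, pow_zero] at hj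
    exact orderOf_eq_one_iff.mp hj
  have hπu : π u = π x := by
    rw [← hπx₁, ← huv, map_mul, hπv, mul_one]
  refine ⟨u, hπu, hzpC huz, ?_⟩
  exact IsPGroup.iff_card.mpr ⟨k, by rw [Nat.card_zpowers, hk]⟩

/-- The local lemma in the class-two case. -/
theorem le_pPrimeCore_of_class_two {X : Type*} [Group X] [Finite X] {p : ℕ} [Fact p.Prime]
    (hX : IsPConstrained p X) {A : Subgroup X} (hAp : IsPGroup p A)
    (hfull : ∀ x ∈ centralizer (A : Set X), IsPGroup p (zpowers x) → x ∈ A)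
    (hclass : ∀ S : Subgroup X, IsPGroup p S → ∀ x ∈ S, ∀ y ∈ S, ∀ z ∈ S, Commute ⁅x, y⁆ z)
    {Q : Subgroup X} (hQ : ¬ p ∣ Nat.card Q) (hAQ : A ≤ normalizer (Q : Set X)) :
    Q ≤ pPrimeCore p X := by
  have hpp : p.Prime := Fact.out
  set O := pPrimeCore p X with hO
  set π := QuotientGroup.mk' O with hπ
  have hQc : (Nat.card Q).Coprime p := ((Nat.Prime.coprime_iff_not_dvd hpp).mpr hQ).symm
  have hOc : (Nat.card O).Coprime p := Cfsg.Agent.Lib.Core.pPrimeCore_coprime p X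
  have hQbar : (Nat.card (Q.map π)).Coprime p :=
    Nat.Coprime.coprime_dvd_left (card_map_dvd_card π Q) hQc
  have hP := Cfsg.Agent.Lib.Core.pCore_isPGroup p (X ⧸ O)
  -- a Sylow subgroup of `X` containing `A`
  obtain ⟨S, hAS⟩ := hAp.exists_le_sylow
  have hπsurj : Function.Surjective π := QuotientGroup.mk'_surjective O
  set S' : Sylow p (X ⧸ O) := S.mapSurjective hπsurj with hS'
  have hS'c : (S' : Subgroup (X ⧸ O)) = (S : Subgroup X).map π := Sylow.coe_mapSurjective _ _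
  have hPS : pCore p (X ⧸ O) ≤ (S' : Subgroup (X ⧸ O)) := pCore_le_sylow S'
  have hASbar : A.map π ≤ (S' : Subgroup (X ⧸ O)) := by
    rw [hS'c]
    exact Subgroup.map_mono hAS
  have hcl : ∀ x ∈ (S' : Subgroup (X ⧸ O)), ∀ y ∈ (S' : Subgroup (X ⧸ O)),
      ∀ z ∈ (S' : Subgroup (X ⧸ O)), Commute ⁅x, y⁆ z := by
    intro x hx y hy z hz
    rw [hS'c] at hx hy hz
    obtain ⟨x', hx', rfl⟩ := hx
    obtain ⟨y', hy', rfl⟩ := hy
    obtain ⟨z', hz', rfl⟩ := hz
    have := hclass S S.isPGroup' x' hx' y' hy' z' hz'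
    rw [← map_commutatorElement]
    exact this.map π
  have hC := centralizes_of_class_two (A := A.map π) (Q := Q.map π) (W := pCore p (X ⧸ O)) hQbar
    (map_le_normalizer hAQ) hP
    (fun _ _ => by
      rw [Subgroup.normalizer_eq_top_iff.mpr inferInstance]
      trivial)
    (fun _ _ => by
      rw [Subgroup.normalizer_eq_top_iff.mpr inferInstance]
      trivial)
    (by
      intro x hxP hxC
      have hxo : IsPGroup p (zpowers x) := hP.to_le ((Subgroup.zpowers_le).mpr hxP)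
      obtain ⟨y, hy, hyC, hyo⟩ := exists_lift_pElement_centralizer hOc hAp hxC hxo
      have hyA := hfull y hyC hyo
      rw [← hy]
      exact map_le_normalizer hAQ ⟨y, hyA, rfl⟩)
    (by
      intro x hx a ha
      have hxS := hPS hx
      have haS := hASbar ha
      exact ⟨fun z hz => hcl x hxS a haS z (hPS hz), fun b hb => hcl x hxS a haS b (hASbar hb)⟩)
  have hle : Q.map π ≤ pCore p (X ⧸ O) := by
    refine le_trans ?_ (Cfsg.Agent.Lib.FStar.centralizer_pCore_quotient_le_of_constrained hX)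
    exact hC
  intro q hq
  have hq1 : π q ∈ pCore p (X ⧸ O) := hle ⟨q, hq, rfl⟩
  have h7 := orderOf_dvd_natCard (⟨_, hq1⟩ : pCore p (X ⧸ O))
  have h8 := orderOf_dvd_natCard (⟨_, Subgroup.mem_map_of_mem π hq⟩ : Q.map π)
  rw [Subgroup.orderOf_mk] at h7 h8
  obtain ⟨n, hn⟩ := IsPGroup.iff_card.mp hP
  rw [hn] at h7
  have h9 : (Nat.card (Q.map π)).Coprime (p ^ n) := Nat.Coprime.pow_right n hQbar
  have h10 := Nat.eq_one_of_dvd_coprimes h9 h8 h7
  exact (QuotientGroup.eq_one_iff q).mp (orderOf_eq_one_iff.mp h10)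

/-- The transfer homomorphism for a central Sylow subgroup. -/
theorem exists_hom_of_central_sylow {C : Type*} [Group C] [Finite C] {p : ℕ} [Fact p.Prime]
    (P : Sylow p C) (hPc : ∀ x : C, ∀ y ∈ (P : Subgroup C), x * y = y * x) :
    ∃ φ : C →* (P : Subgroup C), ¬ p ∣ Nat.card φ.ker := by
  have hN : normalizer ((P : Subgroup C) : Set C) ≤ centralizer ((P : Subgroup C) : Set C) := by
    intro x _
    rw [mem_centralizer_iff]
    intro y hy
    exact (hPc x y hy).symm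
  exact ⟨MonoidHom.transferSylow P hN, MonoidHom.not_dvd_card_ker_transferSylow P hN⟩

/-- `p'`-subgroups of a group with a central Sylow `p`-subgroup lie in a normal `p'`-subgroup. -/
theorem exists_normal_of_central_sylow {C : Type*} [Group C] [Finite C] {p : ℕ} [Fact p.Prime]
    (P : Sylow p C) (hPc : ∀ x : C, ∀ y ∈ (P : Subgroup C), x * y = y * x) :
    ∃ N : Subgroup C, N.Normal ∧ ¬ p ∣ Nat.card N ∧ ∀ x : C, (orderOf x).Coprime p → x ∈ N := by
  obtain ⟨φ, hker⟩ := exists_hom_of_central_sylow P hPc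
  refine ⟨φ.ker, inferInstance, hker, fun x hx => ?_⟩
  rw [MonoidHom.mem_ker]
  have h2 : orderOf (φ x) ∣ orderOf x := orderOf_map_dvd φ _
  have h5 : orderOf (φ x) ∣ Nat.card (P : Subgroup C) := orderOf_dvd_natCard _
  obtain ⟨n, hn⟩ := IsPGroup.iff_card.mp P.isPGroup'
  rw [hn] at h5
  have h6 : (orderOf x).Coprime (p ^ n) := Nat.Coprime.pow_right n hx
  exact orderOf_eq_one_iff.mp (Nat.eq_one_of_dvd_coprimes h6 h2 h5)

/-- Every `p'`-subgroup of `C(E)` lies in `O_{p'}(C(E))` when `E` is an abelian subgroup containing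
the `p`-elements of its centralizer. -/
theorem le_piCoreOf_centralizer {p : ℕ} [Fact p.Prime] {E : Subgroup G}
    (hEc : ∀ x ∈ E, ∀ y ∈ E, x * y = y * x) (hEp : IsPGroup p E)
    (hfull : ∀ x ∈ centralizer (E : Set G), IsPGroup p (zpowers x) → x ∈ E)
    {M : Subgroup G} (hMC : M ≤ centralizer (E : Set G)) (hM : (Nat.card M).Coprime p) :
    M ≤ piCoreOf (primesNotDvd p) (centralizer (E : Set G)) := by
  have hpp : p.Prime := Fact.out
  obtain ⟨C, hC⟩ : ∃ C, C = centralizer (E : Set G) := ⟨_, rfl⟩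
  rw [← hC] at hMC ⊢
  have hEC : E ≤ C := fun x hx => by
    rw [hC, mem_centralizer_iff]
    intro y hy
    exact hEc y hy x hx
  obtain ⟨P, hP⟩ : ∃ P : Sylow p C, (P : Subgroup C) = E.subgroupOf C := by
    refine ⟨{ toSubgroup := E.subgroupOf C, isPGroup' := ?_, is_maximal' := ?_ }, rfl⟩
    · exact IsPGroup.comap_of_injective hEp C.subtype C.subtype_injective
    · intro Q' hQ' hle
      refine le_antisymm ?_ hle
      intro x hx
      rw [mem_subgroupOf]
      apply hfull x (hC ▸ x.2)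
      have h1 : IsPGroup p (zpowers x) := hQ'.to_le ((Subgroup.zpowers_le).mpr hx)
      have h2 := h1.map C.subtype
      rwa [MonoidHom.map_zpowers] at h2
  have hPc : ∀ x : C, ∀ y ∈ (P : Subgroup C), x * y = y * x := by
    intro x y hy
    apply Subtype.ext
    rw [hP, mem_subgroupOf] at hy
    have hx2 : (x : G) ∈ centralizer (E : Set G) := hC ▸ x.2
    exact (mem_centralizer_iff.mp hx2 y hy).symm
  obtain ⟨N, hNn, hNc, hNx⟩ := exists_normal_of_central_sylow P hPc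
  have h1 : N.map C.subtype ≤ piCoreOf (primesNotDvd p) C := by
    apply le_piCoreOf (map_subtype_le _)
    · intro c hc
      refine Cfsg.Agent.Lib.Hall.mem_normalizer_of_conj_le ?_
      rintro _ ⟨x, hx, rfl⟩
      refine ⟨⟨c, hc⟩ * x * (⟨c, hc⟩ : C)⁻¹, hNn.conj_mem x hx _, ?_⟩
      simp
    · intro r hr hd
      refine ⟨hr, fun hrp => ?_⟩
      have hrp' : r = p := (Nat.prime_dvd_prime_iff_eq hr hpp).mp hrp
      subst hrp'
      apply hNc
      refine hd.trans ?_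
      exact dvd_of_eq (Nat.card_congr (N.equivMapOfInjective C.subtype C.subtype_injective).symm.toEquiv)
  intro x hx
  apply h1
  have hxC := hMC hx
  refine ⟨⟨x, hxC⟩, hNx _ ?_, rfl⟩
  have h4 := orderOf_dvd_natCard (⟨x, hx⟩ : M)
  rw [Subgroup.orderOf_mk] at h4
  rw [Subgroup.orderOf_mk]
  exact Nat.Coprime.coprime_dvd_left h4 hM

theorem inv_conj' {H A Y : Subgroup G} {π : Set ℕ} (h : Y ∈ invSubgroups H A π) {k : G} (hkH : k ∈ H)
    (hk : k ∈ centralizer (A : Set G)) : MulAut.conj k • Y ∈ invSubgroups H A π := by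
  refine ⟨?_, fun p hp hd => h.2.1 p hp ?_, conj_mem_normalizer_of_comm hk h.2.2⟩
  · intro x hx
    rw [mem_conj_smul_iff] at hx
    have h1 := H.mul_mem (H.mul_mem hkH (h.1 hx)) (H.inv_mem hkH)
    have h2 : k * (k⁻¹ * x * k) * k⁻¹ = x := by group
    rwa [h2] at h1
  · rwa [card_conj_smul] at hd

theorem maxInv_conj' {H A Q : Subgroup G} {π : Set ℕ} (h : Q ∈ maxInvSubgroups H A π) {k : G}
    (hkH : k ∈ H) (hk : k ∈ centralizer (A : Set G)) : MulAut.conj k • Q ∈ maxInvSubgroups H A π := by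
  refine ⟨inv_conj' h.1 hkH hk, fun R hR hQR => ?_⟩
  have h1 : Q ≤ MulAut.conj k⁻¹ • R := by
    intro x hx
    rw [mem_conj_smul_iff, inv_inv]
    apply hQR
    rw [mem_conj_smul_iff]
    have : k⁻¹ * (k * x * k⁻¹) * k = x := by group
    rwa [this]
  have h2 := h.2 _ (inv_conj' hR (H.inv_mem hkH) (inv_mem hk)) h1
  rw [← h2, conj_smul_conj_smul, mul_inv_cancel, conj_one_smul]

theorem exists_maxInv_le' {H A R : Subgroup G} {π : Set ℕ} (hR : R ∈ invSubgroups H A π) :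
    ∃ Q ∈ maxInvSubgroups H A π, R ≤ Q := by
  obtain ⟨Q, hRQ, hQ⟩ := (Set.toFinite (invSubgroups H A π)).exists_le_maximal hR
  refine ⟨Q, ⟨hQ.1, fun S hS hQS => ?_⟩, hRQ⟩
  exact le_antisymm (hQ.2 hS hQS) hQS

/-- `E` elementary abelian of order `p³`, normalizing `Q` of order prime to `p`, `Q ≰ D`:
some subgroup of order `p²` of `E` has fixed points on `Q` outside `D`. -/
theorem exists_sq_inf_centralizer_not_le {p : ℕ} [hp : Fact p.Prime] {E Q D : Subgroup G}
    (hc : ∀ x ∈ E, ∀ y ∈ E, x * y = y * x) (he : ∀ x ∈ E, x ^ p = 1)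
    (hcard : Nat.card E = p ^ 3) (hEQ : E ≤ normalizer (Q : Set G))
    (hcop : p.Coprime (Nat.card Q)) (hQ : ¬ Q ≤ D) :
    ∃ F ≤ E, Nat.card F = p ^ 2 ∧ ¬ Q ⊓ centralizer (F : Set G) ≤ D := by
  have hpp := hp.out
  obtain ⟨E₂, hE₂E, hE₂⟩ := exists_le_card_of_dvd (p := p) (n := 2) (E := E) (by
    rw [hcard]
    exact pow_dvd_pow p (by norm_num))
  have gen : ∀ {E' R : Subgroup G}, Nat.card E' = p ^ 2 → (∀ x ∈ E', x ^ p = 1) →
      E' ≤ normalizer (R : Set G) → p.Coprime (Nat.card R) → ¬ R ≤ D →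
      ∃ a ∈ E', a ≠ 1 ∧ ¬ R ⊓ centralizer ({a} : Set G) ≤ D := by
    intro E' R h1 h2 h3 h4 h5
    by_contra hcon
    push Not at hcon
    apply h5
    have := Cfsg.Agent.Lib.Hall.generation_elementary hpp h1 h2 (Nat.card R) R le_rfl h3 h4
    rw [← this]
    exact iSup₂_le fun a ha => hcon a ha.1 ha.2
  obtain ⟨a, haE₂, ha1, hR⟩ := gen hE₂ (fun x hx => he x (hE₂E hx)) (hE₂E.trans hEQ) hcop hQ
  have haE : a ∈ E := hE₂E haE₂
  obtain ⟨T, hTE, haT, hTcard⟩ := exists_index_p_not_mem hc he haE ha1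
  have hTc : Nat.card T = p ^ 2 := by
    rw [hcard] at hTcard
    have : Nat.card T * p = p ^ 2 * p := by rw [hTcard]; ring
    exact Nat.eq_of_mul_eq_mul_right hpp.pos this
  set R := Q ⊓ centralizer ({a} : Set G) with hRd
  have hTR : T ≤ normalizer (R : Set G) := by
    intro t ht
    have hta : t ∈ normalizer (centralizer ({a} : Set G) : Set G) := by
      apply Subgroup.le_normalizer
      rw [mem_centralizer_singleton_iff]
      exact hc t (hTE ht) a haE
    exact mem_normalizer_inf'' (hEQ (hTE ht)) hta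
  have hcopR : p.Coprime (Nat.card R) :=
    hcop.coprime_dvd_right (Subgroup.card_dvd_of_le inf_le_left)
  obtain ⟨b, hbT, hb1, hS⟩ := gen hTc (fun x hx => he x (hTE hx)) hTR hcopR hR
  have hbE := hTE hbT
  refine ⟨zpowers a ⊔ zpowers b, sup_le (zpowers_le.mpr haE) (zpowers_le.mpr hbE), ?_, ?_⟩
  · have hoa : orderOf a = p := orderOf_eq_prime (he a haE) ha1
    have hob : orderOf b = p := orderOf_eq_prime (he b hbE) hb1
    have hd : zpowers a ⊓ zpowers b = ⊥ := by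
      rw [eq_bot_iff]
      rintro x ⟨hxa, hxb⟩
      rw [mem_bot]
      by_contra hx1
      have hxo : orderOf x = p := orderOf_eq_prime (he x (zpowers_le.mpr haE hxa)) hx1
      have hz : zpowers x = zpowers a := by
        apply Subgroup.eq_of_le_of_card_ge (zpowers_le.mpr hxa)
        rw [Nat.card_zpowers, Nat.card_zpowers, hxo, hoa]
      have hax : a ∈ zpowers x := hz ▸ mem_zpowers a
      exact haT ((zpowers_le.mpr (zpowers_le.mpr hbT hxb)) hax)
    have hnorm : zpowers a ≤ normalizer ((zpowers b : Subgroup G) : Set G) := by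
      apply le_normalizer_of_le_centralizer
      rw [zpowers_le, mem_centralizer_iff]
      intro y hy
      exact (hc y ((zpowers_le.mpr haE) hy) b hbE)
    have := Cfsg.Agent.Lib.Hall.card_sup_of_le_normalizer hnorm hd
    rw [this, Nat.card_zpowers, Nat.card_zpowers, hoa, hob, sq]
  · intro h
    apply hS
    refine le_trans ?_ h
    rintro x ⟨⟨hxQ, hxa⟩, hxb⟩
    refine ⟨hxQ, ?_⟩
    show x ∈ centralizer ((zpowers a ⊔ zpowers b : Subgroup G) : Set G)
    have h1 : zpowers a ⊔ zpowers b ≤ centralizer ({x} : Set G) := by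
      refine sup_le (zpowers_le.mpr ?_) (zpowers_le.mpr ?_)
      · rw [mem_centralizer_singleton_iff]
        exact (mem_centralizer_singleton_iff.mp hxa).symm
      · rw [mem_centralizer_singleton_iff]
        exact (mem_centralizer_singleton_iff.mp hxb).symm
    rw [mem_centralizer_iff]
    intro y hy
    exact (mem_centralizer_singleton_iff.mp (h1 hy))

section main
variable {p q : ℕ} [Fact p.Prime] [Fact q.Prime] {E A K : Subgroup G} {L : G → Subgroup G}
  (hpq : p ≠ q) (hEp : IsPGroup p E) (hEc : ∀ x ∈ E, ∀ y ∈ E, x * y = y * x) (hAE : A ≤ E)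
  (hAc : ∀ x ∈ A, ∀ y ∈ A, x * y = y * x) (hAe : ∀ x ∈ A, x ^ p = 1) (hAcard : Nat.card A = p ^ 3)
  (hKC : K ≤ centralizer (E : Set G))
  (hK : ∀ M : Subgroup G, M ≤ centralizer (E : Set G) → (Nat.card M).Coprime p → M ≤ K)
  (hLc : ∀ a ∈ A, a ≠ 1 → (Nat.card (L a)).Coprime p)
  (hLE : ∀ a ∈ A, a ≠ 1 → E ≤ normalizer (L a : Set G))
  (hL : ∀ a ∈ A, a ≠ 1 → ∀ Y : Subgroup G, Y ≤ centralizer ({a} : Set G) → IsPGroup q Y →
    E ≤ normalizer (Y : Set G) → Y ≤ L a)
include hpq hEp hEc hAE hAc hAe hAcard hKC hK hLc hLE hL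

/-- The orbit argument. -/
theorem transitive_main : ∀ H : Subgroup G, E ≤ H → ∀ Q₁ ∈ maxInvSubgroups H E {q},
    ∀ Q₂ ∈ maxInvSubgroups H E {q}, ∃ k ∈ H ⊓ K, Q₂ = MulAut.conj k • Q₁ := by
  have hpp : p.Prime := Fact.out
  have hqp : q.Prime := Fact.out
  intro H
  induction' hn : Nat.card H using Nat.strong_induction_on with n IH generalizing H
  intro hEH
  have hleG : ∀ H : Subgroup G, Nat.card H ≤ Nat.card G := fun H =>
    Nat.le_of_dvd Nat.card_pos (Subgroup.card_subgroup_dvd_card H)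
  have key : ∀ m : ℕ, ∀ Q₁ ∈ maxInvSubgroups H E {q}, ∀ Q₂ ∈ maxInvSubgroups H E {q},
      Nat.card G - Nat.card (Q₁ ⊓ Q₂ : Subgroup G) = m → ∃ k ∈ H ⊓ K, Q₂ = MulAut.conj k • Q₁ := by
    intro m
    induction m using Nat.strong_induction_on with
    | _ m ih =>
    intro Q₁ h₁ Q₂ h₂ hm
    obtain ⟨D, hDd⟩ : ∃ D, D = Q₁ ⊓ Q₂ := ⟨_, rfl⟩
    rw [← hDd] at hm
    by_cases hD₁ : D = Q₁
    · have : Q₁ ≤ Q₂ := by
        rw [← hD₁, hDd]
        exact inf_le_right
      exact ⟨1, one_mem _, by rw [h₁.2 Q₂ h₂.1 this, map_one, one_smul]⟩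
    by_cases hD₂ : D = Q₂
    · have : Q₂ ≤ Q₁ := by
        rw [← hD₂, hDd]
        exact inf_le_left
      exact ⟨1, one_mem _, by rw [← h₂.2 Q₁ h₁.1 this, map_one, one_smul]⟩
    have hQ₁p : IsPGroup q Q₁ := isPGroup_of_primes h₁.1.2.1
    have hQ₂p : IsPGroup q Q₂ := isPGroup_of_primes h₂.1.2.1
    have hDQ₁ : D ≤ Q₁ := hDd ▸ inf_le_left
    have hDQ₂ : D ≤ Q₂ := hDd ▸ inf_le_right
    have hDp : IsPGroup q D := hQ₁p.to_le hDQ₁
    have hDH : D ≤ H := hDQ₁.trans h₁.1.1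
    have hEN : E ≤ normalizer (D : Set G) := fun a ha => by
      rw [hDd]
      exact mem_normalizer_inf' (h₁.1.2.2 ha) (h₂.1.2.2 ha)
    -- chain step
    have step : ∀ Q₃ ∈ maxInvSubgroups H E {q}, ∀ c ∈ H ⊓ K,
        Nat.card D < Nat.card (Q₁ ⊓ Q₃ : Subgroup G) →
        Nat.card D < Nat.card (MulAut.conj c • Q₃ ⊓ Q₂ : Subgroup G) →
        ∃ k ∈ H ⊓ K, Q₂ = MulAut.conj k • Q₁ := by
      intro Q₃ hQ₃ c hc hlt₁ hlt₂
      have hcC : c ∈ centralizer (E : Set G) := hKC hc.2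
      have hQ₃' := maxInv_conj' hQ₃ hc.1 hcC
      obtain ⟨k₁, hk₁, hk₁'⟩ := ih (Nat.card G - Nat.card (Q₁ ⊓ Q₃ : Subgroup G))
        (by have := hleG (Q₁ ⊓ Q₃); have := hleG D; omega) Q₁ h₁ Q₃ hQ₃ rfl
      obtain ⟨k₂, hk₂, hk₂'⟩ := ih (Nat.card G - Nat.card (MulAut.conj c • Q₃ ⊓ Q₂ : Subgroup G))
        (by have := hleG (MulAut.conj c • Q₃ ⊓ Q₂); have := hleG D; omega) _ hQ₃' Q₂ h₂ rfl
      refine ⟨k₂ * (c * k₁), mul_mem hk₂ (mul_mem hc hk₁), ?_⟩
      rw [hk₂', hk₁', conj_smul_conj_smul, conj_smul_conj_smul, mul_assoc]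
    by_cases hnorm : H ≤ normalizer (D : Set G)
    · -- rank three
      have hcop₁ : p.Coprime (Nat.card Q₁) := (coprime_prime_card_of_isPGroup hpp hpq hQ₁p)
      have hcop₂ : p.Coprime (Nat.card Q₂) := (coprime_prime_card_of_isPGroup hpp hpq hQ₂p)
      obtain ⟨F₁, hF₁E, hF₁c, hF₁⟩ := exists_sq_inf_centralizer_not_le hAc hAe hAcard
        (hAE.trans h₁.1.2.2) hcop₁ (fun h => hD₁ (le_antisymm hDQ₁ h))
      obtain ⟨F₂, hF₂E, hF₂c, hF₂⟩ := exists_sq_inf_centralizer_not_le hAc hAe hAcard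
        (hAE.trans h₂.1.2.2) hcop₂ (fun h => hD₂ (le_antisymm hDQ₂ h))
      have hF : F₁ ⊓ F₂ ≠ ⊥ := by
        intro hd
        have hnorm' : F₁ ≤ normalizer ((F₂ : Subgroup G) : Set G) := by
          apply le_normalizer_of_le_centralizer
          intro x hx
          show x ∈ centralizer ((F₁ : Subgroup G) : Set G)
          rw [mem_centralizer_iff]
          intro y hy
          exact hAc y (hF₁E hy) x (hF₂E hx)
        have h1 := Cfsg.Agent.Lib.Hall.card_sup_of_le_normalizer hnorm' hd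
        have h2 : Nat.card (F₁ ⊔ F₂ : Subgroup G) ≤ Nat.card A := card_le_of_le' (sup_le hF₁E hF₂E)
        rw [h1, hF₁c, hF₂c, hAcard] at h2
        have h3 : p ^ 2 * p ^ 2 = p ^ 4 := by ring
        rw [h3] at h2
        have := (Nat.pow_le_pow_iff_right hpp.one_lt).mp h2
        omega
      obtain ⟨b, hb, hb1⟩ := exists_mem_ne_one hF
      have hbA : b ∈ A := hF₁E hb.1
      have hbE : b ∈ E := hAE hbA
      -- the two pieces
      have hYb : ∀ {Q F : Subgroup G}, b ∈ F → ¬ Q ⊓ centralizer (F : Set G) ≤ D →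
          ¬ Q ⊓ centralizer ({b} : Set G) ≤ D := by
        intro Q F hbF h hh
        apply h
        refine le_trans ?_ hh
        rintro x ⟨hxQ, hxF⟩
        refine ⟨hxQ, ?_⟩
        show x ∈ centralizer ({b} : Set G)
        rw [mem_centralizer_singleton_iff]
        exact (mem_centralizer_iff.mp hxF b hbF).symm
      have hEb : E ≤ normalizer (centralizer ({b} : Set G) : Set G) := by
        intro e he
        have hec : e ∈ centralizer ({b} : Set G) := by
          rw [mem_centralizer_singleton_iff]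
          exact hEc e he b hbE
        exact Subgroup.le_normalizer hec
      have hY : ∀ {Q : Subgroup G}, Q ∈ maxInvSubgroups H E {q} →
          Q ⊓ centralizer ({b} : Set G) ≤ L b ⊓ H ∧ IsPGroup q (Q ⊓ centralizer ({b} : Set G) : Subgroup G) ∧
          E ≤ normalizer ((Q ⊓ centralizer ({b} : Set G) : Subgroup G) : Set G) := by
        intro Q hQ
        have hQp : IsPGroup q Q := isPGroup_of_primes hQ.1.2.1
        have h2 : IsPGroup q (Q ⊓ centralizer ({b} : Set G) : Subgroup G) := hQp.to_le inf_le_left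
        have h3 : E ≤ normalizer ((Q ⊓ centralizer ({b} : Set G) : Subgroup G) : Set G) :=
          fun e he => mem_normalizer_inf' (hQ.1.2.2 he) (hEb he)
        exact ⟨le_inf (hL b hbA hb1 _ inf_le_right h2 h3) (inf_le_left.trans hQ.1.1), h2, h3⟩
      obtain ⟨Y₁, hY₁d⟩ : ∃ Y₁, Y₁ = Q₁ ⊓ centralizer ({b} : Set G) := ⟨_, rfl⟩
      obtain ⟨Y₂, hY₂d⟩ : ∃ Y₂, Y₂ = Q₂ ⊓ centralizer ({b} : Set G) := ⟨_, rfl⟩
      have hY₁nd : ¬ Y₁ ≤ D := hY₁d ▸ hYb hb.1 hF₁
      have hY₂nd : ¬ Y₂ ≤ D := hY₂d ▸ hYb hb.2 hF₂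
      obtain ⟨h11, h12, h13⟩ := hY h₁
      obtain ⟨h21, h22, h23⟩ := hY h₂
      rw [← hY₁d] at h11 h12 h13
      rw [← hY₂d] at h21 h22 h23
      have hY₁Q₁ : Y₁ ≤ Q₁ := hY₁d ▸ inf_le_left
      have hY₂Q₂ : Y₂ ≤ Q₂ := hY₂d ▸ inf_le_left
      obtain ⟨M, hMd⟩ : ∃ M, M = L b ⊓ H := ⟨_, rfl⟩
      rw [← hMd] at h11 h21
      have hMH : M ≤ H := hMd ▸ inf_le_right
      have hEM : E ≤ normalizer (M : Set G) := fun e he => by
        rw [hMd]
        exact mem_normalizer_inf' (hLE b hbA hb1 he) (Subgroup.le_normalizer (hEH he))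
      have hMc : (Nat.card M).Coprime p := by
        rw [hMd]
        exact (hLc b hbA hb1).coprime_dvd_left (Subgroup.card_dvd_of_le inf_le_left)
      have hcop : (Nat.card E).Coprime (Nat.card M) := (coprime_card_of_isPGroup hEp hMc).symm
      have hsolv : Group.IsSolvable E ∨ Group.IsSolvable M := Or.inl (isSolvable_of_isPGroup hEp)
      obtain ⟨P₁, hP₁, hP₁E⟩ := Cfsg.Agent.Lib.Hall.exists_invariant_sylow_le E M hEM hcop hsolv q
        Y₁ h11 h12 h13
      obtain ⟨P₂, hP₂, hP₂E⟩ := Cfsg.Agent.Lib.Hall.exists_invariant_sylow_le E M hEM hcop hsolv q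
        Y₂ h21 h22 h23
      obtain ⟨c, hcE, hc⟩ := Cfsg.Agent.Lib.Hall.exists_centralizer_conj_sylow E M hEM hcop hsolv q
        P₁ P₂ hP₁E hP₂E
      have hmap : (P₂ : Subgroup M).map M.subtype =
          MulAut.conj (c : G) • (P₁ : Subgroup M).map M.subtype := by
        rw [← hc, ← map_subtype_conj_smul]
        rfl
      have hcK : (c : G) ∈ H ⊓ K := by
        refine ⟨hMH c.2, ?_⟩
        have h1 : M ⊓ centralizer (E : Set G) ≤ K := hK _ inf_le_right
          (hMc.coprime_dvd_left (Subgroup.card_dvd_of_le inf_le_left))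
        exact h1 ⟨c.2, hcE⟩
      have hR₁ : (P₁ : Subgroup M).map M.subtype ∈ invSubgroups H E {q} := by
        refine ⟨(map_subtype_le _).trans hMH, ?_, hP₁E⟩
        apply primes_of_isPGroup
        exact (P₁.isPGroup').map M.subtype
      obtain ⟨Q₃, hQ₃, hR₁Q₃⟩ := exists_maxInv_le' hR₁
      have hDle : ∀ Q ∈ maxInvSubgroups H E {q}, D ≤ Q := by
        intro Q hQ
        have hQp : IsPGroup q Q := isPGroup_of_primes hQ.1.2.1
        have hpsup : IsPGroup q (Q ⊔ D : Subgroup G) :=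
          IsPGroup.to_sup_of_normal_right' hQp hDp (hQ.1.1.trans hnorm)
        have hinv : Q ⊔ D ∈ invSubgroups H E {q} := by
          refine ⟨sup_le hQ.1.1 hDH, primes_of_isPGroup hpsup, ?_⟩
          intro e he
          exact Cfsg.Agent.Lib.Hall.mem_normalizer_of_conj_le (fun x hx => by
            have h1 : MulAut.conj e • (Q ⊔ D) ≤ Q ⊔ D := by
              rw [Subgroup.smul_sup]
              refine sup_le ?_ ?_
              · rw [conj_smul_eq_self_of_mem_normalizer (hQ.1.2.2 he)]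
                exact le_sup_left
              · rw [conj_smul_eq_self_of_mem_normalizer (hEN he)]
                exact le_sup_right
            apply h1
            rw [mem_conj_smul_iff]
            simpa [mul_assoc] using hx)
        have := hQ.2 _ hinv le_sup_left
        exact le_sup_right.trans this.le
      have hQ₃' := maxInv_conj' hQ₃ hcK.1 (hKC hcK.2)
      have hlt : ∀ {Y Q : Subgroup G}, Y ≤ Q → D ≤ Q → ¬ Y ≤ D → Nat.card D < Nat.card Q := by
        intro Y Q hYQ hDQ hYD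
        apply card_lt_card_of_lt
        exact lt_of_le_of_ne hDQ (fun h => hYD (h ▸ hYQ))
      refine step Q₃ hQ₃ c hcK (hlt (Y := Y₁) (le_inf hY₁Q₁ (hP₁.trans hR₁Q₃))
        (le_inf hDQ₁ (hDle _ hQ₃)) hY₁nd) (hlt (Y := Y₂) (le_inf ?_ hY₂Q₂)
        (le_inf (hDle _ hQ₃') hDQ₂) hY₂nd)
      refine hP₂.trans ?_
      rw [hmap]
      exact conj_smul_le_conj_smul hR₁Q₃
    · -- the normalizer
      obtain ⟨N, hNd⟩ : ∃ N, N = H ⊓ normalizer (D : Set G) := ⟨_, rfl⟩
      have hNH : N ≤ H := hNd ▸ inf_le_left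
      have hNN : N ≤ normalizer (D : Set G) := hNd ▸ inf_le_right
      have hENle : E ≤ N := hNd ▸ le_inf hEH hEN
      have hNlt : Nat.card N < Nat.card H := by
        apply card_lt_card_of_lt
        exact lt_of_le_of_ne hNH (fun h => hnorm (h ▸ hNN))
      have hU : ∀ Q ∈ maxInvSubgroups H E {q}, Q ⊓ N ∈ invSubgroups N E {q} := fun Q hQ =>
        ⟨inf_le_right, primes_mono (Subgroup.card_dvd_of_le inf_le_left) hQ.1.2.1, fun a ha =>
          mem_normalizer_inf' (hQ.1.2.2 ha) (Subgroup.le_normalizer (hENle ha))⟩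
      obtain ⟨U₁, hU₁, hU₁le⟩ := exists_maxInv_le' (hU Q₁ h₁)
      obtain ⟨U₂, hU₂, hU₂le⟩ := exists_maxInv_le' (hU Q₂ h₂)
      obtain ⟨c, hc, hc'⟩ := IH (Nat.card N) (hn ▸ hNlt) N rfl hENle U₁ hU₁ U₂ hU₂
      have hR₁i : U₁ ∈ invSubgroups H E {q} := ⟨hU₁.1.1.trans hNH, hU₁.1.2.1, hU₁.1.2.2⟩
      obtain ⟨Q₃, hQ₃, hU₁Q₃⟩ := exists_maxInv_le' hR₁i
      have hcK : c ∈ H ⊓ K := ⟨hNH hc.1, hc.2⟩
      obtain ⟨x₁, hx₁, hx₁D, hx₁N⟩ := Cfsg.Agent.Lib.Hall.exists_mem_normalizer_of_lt hQ₁p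
        (lt_of_le_of_ne hDQ₁ hD₁)
      obtain ⟨x₂, hx₂, hx₂D, hx₂N⟩ := Cfsg.Agent.Lib.Hall.exists_mem_normalizer_of_lt hQ₂p
        (lt_of_le_of_ne hDQ₂ hD₂)
      have hDN : D ≤ N := hNd ▸ le_inf hDH Subgroup.le_normalizer
      have hU₂Q₃ : U₂ ≤ MulAut.conj c • Q₃ := hc' ▸ conj_smul_le_conj_smul hU₁Q₃
      have hlt₁ : Nat.card D < Nat.card (Q₁ ⊓ Q₃ : Subgroup G) := by
        have h1 : D < Q₁ ⊓ N := lt_of_le_of_ne (le_inf hDQ₁ hDN) (fun h =>
          hx₁D (h ▸ ⟨hx₁, hNd ▸ ⟨h₁.1.1 hx₁, hx₁N⟩⟩))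
        exact (card_lt_card_of_lt h1).trans_le
          (card_le_of_le' (le_inf inf_le_left (hU₁le.trans hU₁Q₃)))
      have hlt₂ : Nat.card D < Nat.card (MulAut.conj c • Q₃ ⊓ Q₂ : Subgroup G) := by
        have h1 : D < Q₂ ⊓ N := lt_of_le_of_ne (le_inf hDQ₂ hDN) (fun h =>
          hx₂D (h ▸ ⟨hx₂, hNd ▸ ⟨h₂.1.1 hx₂, hx₂N⟩⟩))
        exact (card_lt_card_of_lt h1).trans_le
          (card_le_of_le' (le_inf (hU₂le.trans hU₂Q₃) inf_le_left))
      exact step Q₃ hQ₃ c hcK hlt₁ hlt₂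
  exact fun Q₁ h₁ Q₂ h₂ => key _ Q₁ h₁ Q₂ h₂ rfl

end main

theorem commute_of_class_two {S : Type*} [Group S] (hn : Group.IsNilpotent S)
    (hc : Group.nilpotencyClass S ≤ 2) (x y z : S) : Commute ⁅x, y⁆ z := by
  have h1 : Subgroup.upperCentralSeries S 2 = ⊤ :=
    Subgroup.upperCentralSeries_eq_top_iff_nilpotencyClass_le.mpr hc
  have h2 : x ∈ Subgroup.upperCentralSeries S 2 := by rw [h1]; trivial
  rw [Subgroup.mem_upperCentralSeries_succ_iff] at h2
  have h3 := h2 y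
  rw [Subgroup.mem_upperCentralSeries_succ_iff] at h3
  have h4 := h3 z
  rw [Subgroup.upperCentralSeries_zero, Subgroup.mem_bot] at h4
  exact commutatorElement_eq_one_iff_commute.mp h4

/-- **The local lemma.** -/
theorem le_core_of_local {p q : ℕ} [Fact p.Prime] [Fact q.Prime] (hqp : q ≠ p)
    (hloc : ∀ T : Subgroup G, IsPGroup p T → T ≠ ⊥ → IsPConstrained p ↥(normalizer (T : Set G)))
    (h2 : p = 2 → ∀ S : Sylow p G, Group.IsNilpotent (S : Subgroup G) ∧
      Group.nilpotencyClass (S : Subgroup G) ≤ 2)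
    {E : Subgroup G} (hEp : IsPGroup p E) (hEc : ∀ x ∈ E, ∀ y ∈ E, x * y = y * x)
    (hEfull : ∀ x ∈ centralizer (E : Set G), IsPGroup p (zpowers x) → x ∈ E)
    {a : G} (haE : a ∈ E) (ha1 : a ≠ 1) {Y : Subgroup G} (hYC : Y ≤ centralizer ({a} : Set G))
    (hYp : IsPGroup q Y) (hEY : E ≤ normalizer (Y : Set G)) :
    Y ≤ (pPrimeCore p ↥(normalizer ((zpowers a : Subgroup G) : Set G))).map (Subgroup.subtype _) := by
  have hpp : p.Prime := Fact.out
  obtain ⟨X, hXd⟩ : ∃ X, X = normalizer ((zpowers a : Subgroup G) : Set G) := ⟨_, rfl⟩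
  rw [← hXd]
  have hap : IsPGroup p (zpowers a) := hEp.to_le ((Subgroup.zpowers_le).mpr haE)
  have hane : zpowers a ≠ ⊥ := by
    rw [Ne, Subgroup.zpowers_eq_bot]
    exact ha1
  have hX : IsPConstrained p X := hXd ▸ hloc _ hap hane
  have hCX : centralizer ({a} : Set G) ≤ X := by
    intro x hx
    rw [hXd]
    apply centralizer_le_normalizer'
    rw [mem_centralizer_iff]
    intro y hy
    obtain ⟨n, rfl⟩ := Subgroup.mem_zpowers_iff.mp hy
    have h1 : Commute a x := (mem_centralizer_singleton_iff.mp hx).symm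
    exact (h1.zpow_left n).eq
  have hEX : E ≤ X := fun e he => hCX (by
    rw [mem_centralizer_singleton_iff]
    exact hEc e he a haE)
  have hYX : Y ≤ X := hYC.trans hCX
  have hAp : IsPGroup p (E.subgroupOf X) := isPGroup_subgroupOf hEp
  have hAQ : E.subgroupOf X ≤ normalizer ((Y.subgroupOf X : Subgroup X) : Set X) := by
    intro e he
    rw [mem_normalizer_iff]
    intro y
    simp only [SetLike.mem_coe, mem_subgroupOf, coe_mul, InvMemClass.coe_inv]
    exact mem_normalizer_iff.mp (hEY (mem_subgroupOf.mp he)) y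
  have hfull : ∀ x ∈ centralizer ((E.subgroupOf X : Subgroup X) : Set X), IsPGroup p (zpowers x) →
      x ∈ E.subgroupOf X := by
    intro x hx hxp
    rw [mem_subgroupOf]
    apply hEfull
    · rw [mem_centralizer_iff]
      intro e he
      have h1 := mem_centralizer_iff.mp hx ⟨e, hEX he⟩ (mem_subgroupOf.mpr he)
      exact congrArg Subtype.val h1
    · have h3 := hxp.map X.subtype
      rwa [MonoidHom.map_zpowers] at h3
  have hQ : ¬ p ∣ Nat.card (Y.subgroupOf X) := by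
    intro hd
    rw [Nat.card_congr (subgroupOfEquivOfLe hYX).toEquiv] at hd
    obtain ⟨n, hn⟩ := IsPGroup.iff_card.mp hYp
    rw [hn] at hd
    exact hqp ((Nat.prime_dvd_prime_iff_eq hpp Fact.out).mp (hpp.dvd_of_dvd_pow hd)).symm
  have h : Y.subgroupOf X ≤ pPrimeCore p X := by
    by_cases hp2 : p = 2
    · refine le_pPrimeCore_of_class_two hX hAp hfull ?_ hQ hAQ
      intro S hS x hx y hy z hz
      obtain ⟨Ŝ, hŜ⟩ := (hS.map X.subtype).exists_le_sylow
      obtain ⟨h3, h4⟩ := h2 hp2 Ŝ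
      have h5 := commute_of_class_two h3 h4 ⟨x, hŜ ⟨x, hx, rfl⟩⟩ ⟨y, hŜ ⟨y, hy, rfl⟩⟩
        ⟨z, hŜ ⟨z, hz, rfl⟩⟩
      apply Subtype.ext
      have h6 := congrArg Subtype.val h5.eq
      simpa [commutatorElement_def] using h6
    · refine Cfsg.Agent.Lib.OddLocal.le_pPrimeCore_of_omega hp2 hX hAp ?_ hQ hAQ
      intro x hx hxo
      apply hfull x hx
      exact IsPGroup.iff_card.mpr ⟨1, by rw [Nat.card_zpowers, hxo, pow_one]⟩
  have h3 := Subgroup.map_mono (f := X.subtype) h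
  rwa [Subgroup.map_subgroupOf_eq_of_le hYX] at h3

/-- **The transitivity theorem.** -/
theorem transitivity_theorem {p q : ℕ} [Fact p.Prime] [Fact q.Prime] (hqp : q ≠ p)
    (hloc : ∀ T : Subgroup G, IsPGroup p T → T ≠ ⊥ → IsPConstrained p ↥(normalizer (T : Set G)))
    (h2 : p = 2 → ∀ S : Sylow p G, Group.IsNilpotent (S : Subgroup G) ∧
      Group.nilpotencyClass (S : Subgroup G) ≤ 2)
    {E : Subgroup G} (hEp : IsPGroup p E) (hEc : ∀ x ∈ E, ∀ y ∈ E, x * y = y * x)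
    (hE3 : ¬ PRankLE p 2 E)
    (hEfull : ∀ x ∈ centralizer (E : Set G), IsPGroup p (zpowers x) → x ∈ E) :
    ∀ Q₁ ∈ maxInvSubgroups ⊤ E {q}, ∀ Q₂ ∈ maxInvSubgroups ⊤ E {q},
      ∃ k ∈ piCoreOf (primesNotDvd p) (centralizer (E : Set G)), Q₂ = MulAut.conj k • Q₁ := by
  have hpp : p.Prime := Fact.out
  intro Q₁ h₁ Q₂ h₂
  obtain ⟨A₀, hc, he, hcard⟩ := exists_elementary_of_not_pRankLE hpp hE3
  have hAc : ∀ x ∈ A₀.map E.subtype, ∀ y ∈ A₀.map E.subtype, x * y = y * x := by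
    rintro _ ⟨x, hx, rfl⟩ _ ⟨y, hy, rfl⟩
    exact congrArg Subtype.val (hc x hx y hy)
  have hAe : ∀ x ∈ A₀.map E.subtype, x ^ p = 1 := by
    rintro _ ⟨x, hx, rfl⟩
    have := congrArg Subtype.val (he x hx)
    simpa using this
  have hAcard : Nat.card (A₀.map E.subtype) = p ^ 3 := by
    rw [← hcard]
    exact Nat.card_congr (A₀.equivMapOfInjective E.subtype E.subtype_injective).symm.toEquiv
  have hAE : A₀.map E.subtype ≤ E := map_subtype_le _
  obtain ⟨L, hLd⟩ : ∃ L : G → Subgroup G, L = fun a =>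
      (pPrimeCore p ↥(normalizer ((zpowers a : Subgroup G) : Set G))).map (Subgroup.subtype _) := ⟨_, rfl⟩
  have hLc : ∀ a ∈ A₀.map E.subtype, a ≠ 1 → (Nat.card (L a)).Coprime p := by
    intro a _ _
    rw [hLd]
    exact Nat.Coprime.coprime_dvd_left (card_map_dvd_card _ _)
      (Cfsg.Agent.Lib.Core.pPrimeCore_coprime p _)
  have hLE : ∀ a ∈ A₀.map E.subtype, a ≠ 1 → E ≤ normalizer (L a : Set G) := by
    intro a haA _ e he
    rw [hLd]
    have heN : e ∈ normalizer ((zpowers a : Subgroup G) : Set G) := by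
      apply centralizer_le_normalizer'
      rw [mem_centralizer_iff]
      intro y hy
      obtain ⟨n, rfl⟩ := Subgroup.mem_zpowers_iff.mp hy
      have h1 : Commute a e := hEc a (hAE haA) e he
      exact (h1.zpow_left n).eq
    refine Cfsg.Agent.Lib.Hall.mem_normalizer_of_conj_le ?_
    rintro _ ⟨x, hx, rfl⟩
    refine ⟨⟨e, heN⟩ * x * (⟨e, heN⟩ : normalizer ((zpowers a : Subgroup G) : Set G))⁻¹,
      (inferInstance : (pPrimeCore p ↥(normalizer ((zpowers a : Subgroup G) : Set G))).Normal).conj_mem x hx _, ?_⟩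
    simp
  have hL : ∀ a ∈ A₀.map E.subtype, a ≠ 1 → ∀ Y : Subgroup G, Y ≤ centralizer ({a} : Set G) →
      IsPGroup q Y → E ≤ normalizer (Y : Set G) → Y ≤ L a := by
    intro a haA ha1 Y hYC hYp hEY
    rw [hLd]
    exact le_core_of_local hqp hloc h2 hEp hEc hEfull (hAE haA) ha1 hYC hYp hEY
  obtain ⟨k, hk, hk'⟩ := transitive_main (p := p) (q := q) (L := L)
    hqp.symm hEp hEc hAE hAc hAe hAcard (K := piCoreOf (primesNotDvd p) (centralizer (E : Set G)))
    piCoreOf_le (fun M hM hMc => le_piCoreOf_centralizer hEc hEp hEfull hM hMc)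
    hLc hLE hL ⊤ le_top Q₁ h₁ Q₂ h₂
  exact ⟨k, hk.2, hk'⟩

end Cfsg.Agent.Lib.OddLocal.TransThm
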